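import Cfsg.Agent.Linear.RootGroups.Transvections

/-!
# Transvections in characteristic two as root involutions; the statement forms
-/

set_option autoImplicit false

namespace Cfsg.Agent.Linear.RootGroups

open Cfsg Matrix

variable {k : Type*} [Field k] {n : ℕ}

local notation "SLn" => Matrix.SpecialLinearGroup (Fin (n + 3)) k

theorem base_dot : (e (1 : Fin (n + 3)) : Fin (n + 3) → k) ⬝ᵥ e 0 = 0 := e_dot _ _ (by simp)

theorem base_val (c : k) :
    (tHom (e (0 : Fin (n + 3))) (e (k := k) 1) base_dot (Multiplicative.ofAdd c)).1 = Matrix.transvection 0 1 c := by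
  rw [← transvection_eq 0 1 (by simp) c]
  rfl

theorem base_closure :
    Subgroup.closure {t : SLn | ∃ c : k, (t : Matrix (Fin (n + 3)) (Fin (n + 3)) k) = Matrix.transvection 0 1 c} =
      X (e (0 : Fin (n + 3))) (e (k := k) 1) base_dot := by
  refine le_antisymm ((Subgroup.closure_le _).2 ?_) ?_
  · rintro t ⟨c, hc⟩
    exact ⟨Multiplicative.ofAdd c, Subtype.ext ((base_val c).trans hc.symm)⟩
  · rintro _ ⟨c, rfl⟩
    exact Subgroup.subset_closure ⟨Multiplicative.toAdd c, base_val (Multiplicative.toAdd c)⟩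

theorem templateSet_eq :
    {A : Subgroup SLn | ∃ g : SLn, A = conjBy (Subgroup.closure {t : SLn |
        ∃ c : k, (t : Matrix (Fin (n + 3)) (Fin (n + 3)) k) = Matrix.transvection 0 1 c}) g} =
      rootClass (N := n + 3) (by omega) k := by
  ext A
  rw [mem_rootClass_iff, base_closure]
  rfl

/-- The transvections. -/
def tvSet (k : Type*) [Field k] (n : ℕ) : Set (Matrix.SpecialLinearGroup (Fin (n + 3)) k) :=
  {t | ∃ (v f : Fin (n + 3) → k) (h : f ⬝ᵥ v = 0), v ≠ 0 ∧ f ≠ 0 ∧ t = tHom v f h (Multiplicative.ofAdd 1)}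

theorem conj_tHom (g : SLn) (v f : Fin (n + 3) → k) (h : f ⬝ᵥ v = 0) (c : k) :
    ∃ h' : (f ᵥ* g⁻¹.1) ⬝ᵥ (g.1 *ᵥ v) = 0,
      g * tHom v f h (Multiplicative.ofAdd c) * g⁻¹ = tHom (g.1 *ᵥ v) (f ᵥ* g⁻¹.1) h' (Multiplicative.ofAdd c) := by
  obtain ⟨h', -⟩ := conj_X g v f h
  refine ⟨h', Subtype.ext ?_⟩
  rw [val_mul, val_mul, tHom_val, tHom_val, Matrix.mul_add, Matrix.mul_one, Matrix.add_mul,
    show g.1 * g⁻¹.1 = 1 from congrArg Subtype.val (mul_inv_cancel g),
    Matrix.mul_smul, Matrix.smul_mul, Matrix.mul_vecMulVec, Matrix.vecMulVec_mul]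

theorem tvSet_conj {t : SLn} (ht : t ∈ tvSet k n) (g : SLn) : g * t * g⁻¹ ∈ tvSet k n := by
  obtain ⟨v, f, h, hv, hf, rfl⟩ := ht
  obtain ⟨h', he⟩ := conj_tHom g v f h 1
  refine ⟨_, _, h', fun hc => hv ?_, fun hc => hf ?_, he⟩
  · have := congrArg (fun x => g⁻¹.1 *ᵥ x) hc
    rwa [Matrix.mulVec_mulVec, show g⁻¹.1 * g.1 = 1 from congrArg Subtype.val (inv_mul_cancel g),
      Matrix.one_mulVec, Matrix.mulVec_zero] at this
  · have := congrArg (fun x => x ᵥ* g.1) hc
    rwa [Matrix.vecMul_vecMul, show g⁻¹.1 * g.1 = 1 from congrArg Subtype.val (inv_mul_cancel g),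
      Matrix.vecMul_one, Matrix.zero_vecMul] at this

theorem tvSet_orbit {t : SLn} (ht : t ∈ tvSet k n) :
    ∃ g : SLn, t = g * tHom (e (0 : Fin (n + 3))) (e (k := k) 1) base_dot (Multiplicative.ofAdd 1) * g⁻¹ := by
  obtain ⟨v, f, h, hv, hf, rfl⟩ := ht
  obtain ⟨g, hg1, hg2⟩ := exists_transport (N := n + 3) (by omega) v f h hv hf
  obtain ⟨h', he⟩ := conj_tHom g (e (0 : Fin (n + 3))) (e (k := k) 1) base_dot 1
  refine ⟨g, ?_⟩
  rw [he]
  refine Subtype.ext ?_
  rw [tHom_val, tHom_val]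
  subst hg1 hg2
  rfl

theorem templateTvSet_eq :
    {t : SLn | ∃ c : k, c ≠ 0 ∧ ∃ g : SLn, ((g⁻¹ * t * g : SLn) : Matrix (Fin (n + 3)) (Fin (n + 3)) k) =
      Matrix.transvection 0 1 c} = tvSet k n := by
  ext t
  constructor
  · rintro ⟨c, hc, g, hg⟩
    have ht : t = g * tHom (e (0 : Fin (n + 3))) (e (k := k) 1) base_dot (Multiplicative.ofAdd c) * g⁻¹ := by
      rw [show tHom (e (0 : Fin (n + 3))) (e (k := k) 1) base_dot (Multiplicative.ofAdd c) = g⁻¹ * t * g from
        Subtype.ext ((base_val c).trans hg.symm)]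
      group
    rw [ht]
    refine tvSet_conj ⟨c • e (0 : Fin (n + 3)), e 1, by rw [dotProduct_smul, base_dot, smul_zero],
      smul_ne_zero hc (e_ne_zero _), e_ne_zero _, Subtype.ext ?_⟩ g
    rw [tHom_val, tHom_val, one_smul, Matrix.smul_vecMulVec]
  · intro ht
    obtain ⟨g, rfl⟩ := tvSet_orbit ht
    refine ⟨1, one_ne_zero, g, ?_⟩
    rw [← base_val (n := n) (1 : k)]
    refine congrArg Subtype.val ?_
    simp [mul_assoc]
    rfl

theorem tHom_sq [CharP k 2] (v f : Fin (n + 3) → k) (h : f ⬝ᵥ v = 0) (c : Multiplicative k) :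
    tHom v f h c * tHom v f h c = 1 := by
  rw [← map_mul, show c * c = 1 from Multiplicative.toAdd.injective (by
    rw [toAdd_mul, toAdd_one]; exact CharTwo.add_self_eq_zero _), map_one]

/-- The transvections form a class of root involutions. -/
theorem tvSet_involutions [Fintype k] [CharP k 2] :
    IsRootInvolutionClass (tvSet k n) ∧ (Fintype.card k = 2 → IsThreeFourPlusTranspositionSet (tvSet k n)) := by
  classical
  have hinv : ∀ t ∈ tvSet k n, t * t = 1 := by
    rintro _ ⟨v, f, h, -, -, rfl⟩; exact tHom_sq v f h _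
  have h20 : (2 : k) = 0 := CharTwo.two_eq_zero
  -- products of two transvections
  have hpair : ∀ a ∈ tvSet k n, ∀ b ∈ tvSet k n, a * b = b * a ∨
      (Odd (orderOf (a * b)) ∧ (Fintype.card k = 2 → orderOf (a * b) = 1 ∨ orderOf (a * b) = 3)) ∨
      (orderOf (a * b) = 4 ∧ (a * b) ^ 2 ∈ tvSet k n) := by
    have four : ∀ (v f w h : Fin (n + 3) → k) (hf : f ⬝ᵥ v = 0) (hh : h ⬝ᵥ w = 0), v ≠ 0 → h ≠ 0 →
        f ⬝ᵥ w ≠ 0 → h ⬝ᵥ v = 0 →
        orderOf (tHom v f hf (Multiplicative.ofAdd 1) * tHom w h hh (Multiplicative.ofAdd 1)) = 4 ∧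
          (tHom v f hf (Multiplicative.ofAdd 1) * tHom w h hh (Multiplicative.ofAdd 1)) ^ 2 ∈ tvSet k n := by
      intro v f w h hf hh hv hh0 ha hb
      set x := tHom v f hf (Multiplicative.ofAdd 1)
      set y := tHom w h hh (Multiplicative.ofAdd 1)
      have hz : (x * y) ^ 2 = tHom ((f ⬝ᵥ w) • v) h (by rw [dotProduct_smul, hb, smul_zero])
          (Multiplicative.ofAdd 1) := by
        have hxy : (x * y) ^ 2 = x * y * x⁻¹ * y⁻¹ := by
          rw [inv_eq_of_mul_eq_one_right (tHom_sq v f hf _), inv_eq_of_mul_eq_one_right (tHom_sq w h hh _), sq]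
          exact (mul_assoc _ _ _).symm
        rw [hxy]
        refine Subtype.ext ?_
        rw [commutator_val hf hh hb, tHom_val, one_mul, one_mul, one_smul, Matrix.smul_vecMulVec]
      have hmem : (x * y) ^ 2 ∈ tvSet k n := ⟨_, _, _, smul_ne_zero ha hv, hh0, hz⟩
      refine ⟨?_, hmem⟩
      have h4 : (x * y) ^ (2 ^ (1 + 1)) = 1 := by rw [pow_succ, pow_mul, pow_one, sq]; exact hinv _ hmem
      have hne : ¬ (x * y) ^ (2 ^ 1) = 1 := by
        rw [pow_one, hz]
        intro h1
        have := congrArg Subtype.val h1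
        rw [tHom_val, one_smul] at this
        exact vecMulVec_ne_zero (smul_ne_zero ha hv) hh0
          (add_eq_left.1 (this.trans Matrix.SpecialLinearGroup.coe_one))
      have : Fact (Nat.Prime 2) := ⟨Nat.prime_two⟩
      simpa using orderOf_eq_prime_pow hne h4
    rintro _ ⟨v, f, hf, hv, hf0, rfl⟩ _ ⟨w, h, hh, hw, hh0, rfl⟩
    by_cases ha : f ⬝ᵥ w = 0 <;> by_cases hb : h ⬝ᵥ v = 0
    · left
      have := commute_of_zero hf hh ha hb
      rw [Subgroup.commutator_eq_bot_iff_le_centralizer] at this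
      exact (Subgroup.mem_centralizer_iff.1 (this ⟨_, rfl⟩) _ ⟨_, rfl⟩).symm
    · obtain ⟨h4, hm⟩ := four w h v f hh hf hw hf0 hb ha
      set x := tHom v f hf (Multiplicative.ofAdd 1)
      set y := tHom w h hh (Multiplicative.ofAdd 1)
      have e : x * y = (y * x)⁻¹ := by
        rw [_root_.mul_inv_rev, inv_eq_of_mul_eq_one_right (tHom_sq v f hf _),
          inv_eq_of_mul_eq_one_right (tHom_sq w h hh _)]
      refine Or.inr (Or.inr ⟨by rw [e, orderOf_inv, h4], ?_⟩)
      rw [e, inv_pow, inv_eq_of_mul_eq_one_right (hinv _ hm)]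
      exact hm
    · exact Or.inr (Or.inr (four v f w h hf hh hv hh0 ha hb))
    · refine Or.inr (Or.inl ?_)
      set φ := sl2Hom hf hh ha hb
      set g : Matrix.SpecialLinearGroup (Fin 2) k := up (f ⬝ᵥ w) * low (h ⬝ᵥ v)
      have hg : tHom v f hf (Multiplicative.ofAdd 1) * tHom w h hh (Multiplicative.ofAdd 1) = φ g := by
        rw [map_mul, sl2Hom_up, sl2Hom_low, div_self ha, div_self hb]
      rw [hg, orderOf_injective φ (sl2Hom_injective hf hh ha hb)]
      have htr : PSL2Classes.tr g ≠ 0 := by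
        have : PSL2Classes.tr g = (f ⬝ᵥ w) * (h ⬝ᵥ v) := by
          change ((up (f ⬝ᵥ w)).1 * (low (h ⬝ᵥ v)).1).trace = _
          simp [up, low, Matrix.trace_fin_two]
          linear_combination h20
        rw [this]
        exact mul_ne_zero ha hb
      have hev : Fintype.card k % 2 = 0 := by
        obtain ⟨m, -, hm⟩ := FiniteField.card k 2
        rw [hm, ← Nat.dvd_iff_mod_eq_zero]
        exact dvd_pow_self 2 m.ne_zero
      have h1 : 1 < Fintype.card k := Fintype.one_lt_card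
      have hdvd : orderOf g ∣ Fintype.card k + 1 ∨ orderOf g ∣ Fintype.card k - 1 := by
        by_cases hr : ∀ l : k, l ^ 2 - PSL2Classes.tr g * l + 1 ≠ 0
        · exact Or.inl (orderOf_dvd_of_pow_eq_one (PSL2Classes.pow_card_succ hr))
        · push Not at hr
          obtain ⟨l, hl⟩ := hr
          exact Or.inr (orderOf_dvd_of_pow_eq_one (PSL2Classes.pow_card_pred hl
            (by rw [h20, zero_mul, sub_zero]; exact htr)))
      refine ⟨?_, fun hc => ?_⟩
      · rcases hdvd with hd | hd <;>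
          exact Odd.of_dvd_nat (Nat.odd_iff.2 (by omega)) hd
      · rw [hc] at hdvd
        rcases hdvd with hd | hd
        · exact (Nat.dvd_prime Nat.prime_three).1 hd
        · exact Or.inl (Nat.dvd_one.1 hd)
  have hset : IsRootInvolutionSet (tvSet k n) := by
    refine ⟨fun t ht => ?_, ?_, fun t ht g => tvSet_conj ht g, fun a ha b hb => ?_⟩
    · refine orderOf_eq_prime (by rw [sq]; exact hinv t ht) ?_
      obtain ⟨v, f, h, hv, hf, rfl⟩ := ht
      intro h1
      have := congrArg Subtype.val h1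
      rw [tHom_val, one_smul] at this
      exact vecMulVec_ne_zero hv hf (add_eq_left.1 (this.trans Matrix.SpecialLinearGroup.coe_one))
    · refine eq_top_of_transvection_mem fun i j hij c => ?_
      rw [transvection_eq i j hij c]
      by_cases hc : c = 0
      · rw [hc, ofAdd_zero, map_one]; exact one_mem _
      · refine Subgroup.subset_closure ⟨c • e i, e j, by rw [dotProduct_smul, e_dot j i hij.symm, smul_zero],
          smul_ne_zero hc (e_ne_zero i), e_ne_zero j, Subtype.ext ?_⟩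
        rw [tHom_val, tHom_val, one_smul, Matrix.smul_vecMulVec]
    · rcases hpair a ha b hb with h | h | h
      · exact Or.inl h
      · exact Or.inr (Or.inl h.1)
      · exact Or.inr (Or.inr h)
  refine ⟨⟨hset, ⟨_, _, _, base_dot, e_ne_zero _, e_ne_zero _, rfl⟩, fun a ha b hb => ?_⟩,
    fun hc => ⟨hset, fun a ha b hb hodd => ?_⟩⟩
  · obtain ⟨g, rfl⟩ := tvSet_orbit ha
    obtain ⟨g', rfl⟩ := tvSet_orbit hb
    exact ⟨g' * g⁻¹, by group⟩
  · rcases hpair a ha b hb with h | h | h
    · refine Or.inl ?_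
      have h2 : (a * b) ^ 2 = 1 := by
        rw [sq, mul_assoc, ← mul_assoc b a b, ← h, mul_assoc a b b, hinv b hb, mul_one, hinv a ha]
      rcases (Nat.dvd_prime Nat.prime_two).1 (orderOf_dvd_of_pow_eq_one h2) with h1 | h1
      · exact h1
      · rw [h1] at hodd; exact absurd hodd (by decide)
    · exact h.2 hc
    · rw [h.1] at hodd; exact absurd hodd (by decide)

end Cfsg.Agent.Linear.RootGroups
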