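import Cfsg.Prelude.Def_RootSubgroups
import Cfsg.Agent.Linear.Transvection
import Cfsg.Agent.Linear.PSL2Spectrum

/-!
# Transvection groups of incident point–hyperplane pairs
-/

set_option autoImplicit false

namespace Cfsg.Agent.Linear.RootGroups

open Cfsg Matrix

variable {k : Type*} [Field k] {N : ℕ}

local notation "SLN" => Matrix.SpecialLinearGroup (Fin N) k
local notation "SL2" => Matrix.SpecialLinearGroup (Fin 2) k

theorem det_tv {v f : Fin N → k} (h : f ⬝ᵥ v = 0) : (1 + vecMulVec v f : Matrix (Fin N) (Fin N) k).det = 1 := by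
  rw [Matrix.vecMulVec_eq Unit, Matrix.det_one_add_replicateCol_mul_replicateRow, h, add_zero]

/-- The transvection `1 + v ⊗ f`. -/
def tEl (v f : Fin N → k) (h : f ⬝ᵥ v = 0) : Matrix.SpecialLinearGroup (Fin N) k := ⟨1 + vecMulVec v f, det_tv h⟩

theorem tEl_val (v f : Fin N → k) (h : f ⬝ᵥ v = 0) : (tEl v f h).1 = 1 + vecMulVec v f := rfl

theorem val_mul (g h : SLN) : (g * h).1 = g.1 * h.1 := rfl

theorem tEl_mul_tEl (v f w h : Fin N → k) (hf : f ⬝ᵥ v = 0) (hh : h ⬝ᵥ w = 0) :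
    (tEl v f hf * tEl w h hh).1 = 1 + vecMulVec v f + vecMulVec w h + (f ⬝ᵥ w) • vecMulVec v h := by
  rw [val_mul, tEl_val, tEl_val, Matrix.add_mul, Matrix.one_mul, Matrix.mul_add, Matrix.mul_one,
    Matrix.vecMulVec_mul_vecMulVec, Matrix.vecMulVec_smul]
  abel

/-- The root group of an incident pair. -/
def tHom (v f : Fin N → k) (h : f ⬝ᵥ v = 0) : Multiplicative k →* Matrix.SpecialLinearGroup (Fin N) k where
  toFun c := tEl (Multiplicative.toAdd c • v) f (by rw [dotProduct_smul, h, smul_zero])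
  map_one' := Subtype.ext (by simp [tEl_val])
  map_mul' c d := Subtype.ext (by
    rw [tEl_mul_tEl]
    simp [tEl_val, dotProduct_smul, h, add_smul, Matrix.add_vecMulVec, add_assoc])

theorem tHom_val (v f : Fin N → k) (h : f ⬝ᵥ v = 0) (c : k) :
    (tHom v f h (Multiplicative.ofAdd c)).1 = 1 + c • vecMulVec v f := by
  change 1 + vecMulVec (c • v) f = _
  rw [Matrix.smul_vecMulVec]

theorem tHom_inv (v f : Fin N → k) (h : f ⬝ᵥ v = 0) (c : k) :
    (tHom v f h (Multiplicative.ofAdd c))⁻¹ = tHom v f h (Multiplicative.ofAdd (-c)) := by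
  rw [ofAdd_neg, map_inv]

theorem tHom_mulVec (v f : Fin N → k) (h : f ⬝ᵥ v = 0) (c : k) (x : Fin N → k) :
    (tHom v f h (Multiplicative.ofAdd c)).1 *ᵥ x = x + (c * (f ⬝ᵥ x)) • v := by
  rw [tHom_val, Matrix.add_mulVec, Matrix.one_mulVec, Matrix.smul_mulVec, Matrix.vecMulVec_mulVec,
    op_smul_eq_smul, smul_smul]

/-- The root subgroup. -/
def X (v f : Fin N → k) (h : f ⬝ᵥ v = 0) : Subgroup (Matrix.SpecialLinearGroup (Fin N) k) := (tHom v f h).range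

theorem mem_X {v f : Fin N → k} {h : f ⬝ᵥ v = 0} {x : SLN} :
    x ∈ X v f h ↔ ∃ c : k, x.1 = 1 + c • vecMulVec v f := by
  constructor
  · rintro ⟨c, rfl⟩; exact ⟨Multiplicative.toAdd c, tHom_val v f h _⟩
  · rintro ⟨c, hc⟩; exact ⟨Multiplicative.ofAdd c, Subtype.ext ((tHom_val v f h c).trans hc.symm)⟩

theorem vecMulVec_ne_zero {v f : Fin N → k} (hv : v ≠ 0) (hf : f ≠ 0) : vecMulVec v f ≠ 0 := by
  obtain ⟨i, hi⟩ := Function.ne_iff.1 hv
  obtain ⟨j, hj⟩ := Function.ne_iff.1 hf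
  exact fun h => mul_ne_zero hi hj (by simpa [vecMulVec_apply] using congrFun (congrFun h i) j)

theorem X_commutative (v f : Fin N → k) (h : f ⬝ᵥ v = 0) : IsMulCommutative (X v f h) := by
  refine ⟨⟨fun a b => ?_⟩⟩
  obtain ⟨a, c, rfl⟩ := a
  obtain ⟨b, d, rfl⟩ := b
  exact Subtype.ext (show tHom v f h c * tHom v f h d = tHom v f h d * tHom v f h c by
    rw [← map_mul, ← map_mul, mul_comm])

theorem X_nilpotent (v f : Fin N → k) (h : f ⬝ᵥ v = 0) : Group.IsNilpotent (X v f h) := by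
  have := X_commutative v f h
  open scoped IsMulCommutative in exact CommGroup.isNilpotent (G := X v f h)

theorem X_ne_bot {v f : Fin N → k} (h : f ⬝ᵥ v = 0) (hv : v ≠ 0) (hf : f ≠ 0) : X v f h ≠ ⊥ := by
  intro hb
  have hm : tHom v f h (Multiplicative.ofAdd 1) ∈ X v f h := ⟨_, rfl⟩
  rw [hb, Subgroup.mem_bot] at hm
  have := congrArg Subtype.val hm
  rw [tHom_val, one_smul] at this
  exact vecMulVec_ne_zero hv hf (add_eq_left.1 (this.trans Matrix.SpecialLinearGroup.coe_one))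

/-- The image of an incident pair. -/
theorem conj_X (g : SLN) (v f : Fin N → k) (h : f ⬝ᵥ v = 0) :
    ∃ h' : (f ᵥ* g⁻¹.1) ⬝ᵥ (g.1 *ᵥ v) = 0, conjBy (X v f h) g = X (g.1 *ᵥ v) (f ᵥ* g⁻¹.1) h' := by
  have hinv : g⁻¹.1 * g.1 = 1 := congrArg Subtype.val (inv_mul_cancel g)
  have h' : (f ᵥ* g⁻¹.1) ⬝ᵥ (g.1 *ᵥ v) = 0 := by
    rw [Matrix.dotProduct_mulVec, Matrix.vecMul_vecMul, hinv, Matrix.vecMul_one, h]
  refine ⟨h', ?_⟩
  have hmap : ∀ c : Multiplicative k, g * tHom v f h c * g⁻¹ = tHom (g.1 *ᵥ v) (f ᵥ* g⁻¹.1) h' c := by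
    intro c
    refine Subtype.ext ?_
    obtain ⟨c, rfl⟩ := Multiplicative.ofAdd.surjective c
    rw [val_mul, val_mul, tHom_val, tHom_val, Matrix.mul_add, Matrix.mul_one, Matrix.add_mul,
      show g.1 * g⁻¹.1 = 1 from congrArg Subtype.val (mul_inv_cancel g),
      Matrix.mul_smul, Matrix.smul_mul, Matrix.mul_vecMulVec, Matrix.vecMulVec_mul]
  ext x
  constructor
  · rintro ⟨_, ⟨c, rfl⟩, rfl⟩
    exact ⟨c, (hmap c).symm⟩
  · rintro ⟨c, rfl⟩
    exact ⟨_, ⟨c, rfl⟩, hmap c⟩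

/-- Unit vectors. -/
def e (i : Fin N) : Fin N → k := Pi.single i 1

theorem exists_det_one (M : Matrix (Fin N) (Fin N) k) (hM : M.det ≠ 0) (l : Fin N) :
    ∃ d : Fin N → k, (∀ i, i ≠ l → d i = 1) ∧ (M * Matrix.diagonal d).det = 1 ∧
      (Matrix.diagonal d * M).det = 1 := by
  refine ⟨Function.update 1 l M.det⁻¹, fun i hi => by simp [hi], ?_, ?_⟩ <;>
    rw [Matrix.det_mul, Matrix.det_diagonal, Finset.prod_update_of_mem (Finset.mem_univ _)] <;> simp [hM]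

theorem exists_first (hN : 3 ≤ N) (v : Fin N → k) (hv : v ≠ 0) :
    ∃ g : SLN, g.1 *ᵥ e ⟨0, by omega⟩ = v := by
  classical
  obtain ⟨j, hj⟩ := Function.ne_iff.1 hv
  set z : Fin N := ⟨0, by omega⟩
  set σ : Equiv.Perm (Fin N) := Equiv.swap z j
  set M₀ : Matrix (Fin N) (Fin N) k := (1 : Matrix (Fin N) (Fin N) k).updateCol j v
  have hd : M₀.det = v j := by
    rw [← Matrix.cramer_apply, Matrix.cramer_one]; rfl
  set M := M₀.submatrix id σ with hMdef
  have hMd : M.det ≠ 0 := by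
    rw [hMdef, Matrix.det_permute', hd]
    exact mul_ne_zero (by rcases Int.units_eq_one_or (Equiv.Perm.sign σ) with h | h <;> simp [h]) hj
  obtain ⟨d, hd1, hdet, -⟩ := exists_det_one M hMd ⟨1, by omega⟩
  refine ⟨⟨M * Matrix.diagonal d, hdet⟩, ?_⟩
  funext i
  change ((M * Matrix.diagonal d) *ᵥ e z) i = v i
  rw [e, Matrix.mulVec_single_one]
  change (M * Matrix.diagonal d) i z = v i
  rw [Matrix.mul_diagonal, hd1 z (by simp [z, Fin.ext_iff]), mul_one]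
  simp [hMdef, M₀, σ]

theorem exists_second (hN : 3 ≤ N) (f : Fin N → k) (hf : f ≠ 0) (h0 : f ⟨0, by omega⟩ = 0) :
    ∃ g : SLN, g.1 *ᵥ e ⟨0, by omega⟩ = e ⟨0, by omega⟩ ∧ e ⟨1, by omega⟩ ᵥ* g.1 = f := by
  classical
  obtain ⟨j, hj⟩ := Function.ne_iff.1 hf
  set z : Fin N := ⟨0, by omega⟩
  set o : Fin N := ⟨1, by omega⟩
  set σ : Equiv.Perm (Fin N) := Equiv.swap o j
  have hjz : j ≠ z := fun h => hj (h ▸ h0)
  have hoz : o ≠ z := by simp [o, z, Fin.ext_iff]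
  set M₀ : Matrix (Fin N) (Fin N) k := (1 : Matrix (Fin N) (Fin N) k).updateRow j f
  have hd : M₀.det = f j := by
    have h' := Matrix.cramer_transpose_apply (1 : Matrix (Fin N) (Fin N) k) f j
    rw [Matrix.transpose_one, Matrix.cramer_one] at h'
    exact h'.symm
  set M := M₀.submatrix σ id with hMdef
  have hMd : M.det ≠ 0 := by
    rw [hMdef, Matrix.det_permute, hd]
    exact mul_ne_zero (by rcases Int.units_eq_one_or (Equiv.Perm.sign σ) with h | h <;> simp [h]) hj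
  set l : Fin N := ⟨2, by omega⟩
  obtain ⟨d, hd1, -, hdet⟩ := exists_det_one M hMd l
  have hMz : ∀ i, M i z = if i = z then 1 else 0 := by
    intro i
    change M₀ (σ i) z = _
    rcases eq_or_ne (σ i) j with h | h
    · have hi : i = o := σ.injective (h.trans (Equiv.swap_apply_left o j).symm)
      rw [if_neg (hi ▸ hoz)]
      simp only [M₀, h, Matrix.updateRow_self, h0]
    · simp only [M₀, Matrix.updateRow_ne h, Matrix.one_apply]
      have hσz : σ z = z := Equiv.swap_apply_of_ne_of_ne hoz.symm hjz.symm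
      by_cases hi : i = z
      · rw [if_pos hi, if_pos (hi ▸ hσz)]
      · rw [if_neg hi, if_neg fun hh => hi (σ.injective (hh.trans hσz.symm))]
  refine ⟨⟨Matrix.diagonal d * M, hdet⟩, ?_, ?_⟩
  · funext i
    rw [e, Matrix.mulVec_single_one]
    change (Matrix.diagonal d * M) i z = _
    rw [Matrix.diagonal_mul, hMz]
    rcases eq_or_ne i z with rfl | hi
    · rw [if_pos rfl, hd1 z (by simp [z, l, Fin.ext_iff]), mul_one, Pi.single_eq_same]
    · rw [if_neg hi, mul_zero, Pi.single_eq_of_ne hi]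
  · funext i
    rw [e, Matrix.single_one_vecMul]
    change (Matrix.diagonal d * M) o i = _
    rw [Matrix.diagonal_mul, hd1 o (by simp [o, l, Fin.ext_iff]), one_mul]
    simp [hMdef, M₀, σ]

/-- Incident pairs form one orbit. -/
theorem exists_transport (hN : 3 ≤ N) (v f : Fin N → k) (h : f ⬝ᵥ v = 0) (hv : v ≠ 0) (hf : f ≠ 0) :
    ∃ g : SLN, g.1 *ᵥ e ⟨0, by omega⟩ = v ∧ e ⟨1, by omega⟩ ᵥ* g⁻¹.1 = f := by
  obtain ⟨g, hg⟩ := exists_first hN v hv
  set f' := f ᵥ* g.1 with hf'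
  have h0 : f' ⟨0, by omega⟩ = 0 := by
    rw [← h, ← hg, Matrix.dotProduct_mulVec, e, dotProduct_single, mul_one]
  have hf0 : f' ≠ 0 := by
    intro hc
    apply hf
    have := congrArg (fun x => x ᵥ* g⁻¹.1) hc
    simp only [hf', Matrix.vecMul_vecMul, Matrix.zero_vecMul] at this
    rwa [show g.1 * g⁻¹.1 = 1 from congrArg Subtype.val (mul_inv_cancel g), Matrix.vecMul_one] at this
  obtain ⟨q, hq0, hq1⟩ := exists_second hN f' hf0 h0
  refine ⟨g * q⁻¹, ?_, ?_⟩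
  · conv_rhs => rw [← hg, ← Matrix.one_mulVec (e (k := k) ⟨0, by omega⟩),
      show (1 : Matrix (Fin N) (Fin N) k) = q⁻¹.1 * q.1 from (congrArg Subtype.val (inv_mul_cancel q)).symm,
      ← Matrix.mulVec_mulVec, hq0, Matrix.mulVec_mulVec]
    rfl
  · rw [_root_.mul_inv_rev, inv_inv, val_mul, ← Matrix.vecMul_vecMul, hq1, hf', Matrix.vecMul_vecMul,
      show g.1 * g⁻¹.1 = 1 from congrArg Subtype.val (mul_inv_cancel g), Matrix.vecMul_one]

/-- The class. -/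
def rootClass (hN : 3 ≤ N) (k : Type*) [Field k] : Set (Subgroup (Matrix.SpecialLinearGroup (Fin N) k)) :=
  {A | ∃ (v f : Fin N → k) (h : f ⬝ᵥ v = 0), v ≠ 0 ∧ f ≠ 0 ∧ 3 ≤ N ∧ A = X v f h}

theorem X_congr {v f v' f' : Fin N → k} (h : f ⬝ᵥ v = 0) (h' : f' ⬝ᵥ v' = 0) (e1 : v = v') (e2 : f = f') :
    X v f h = X v' f' h' := by subst e1 e2; rfl

theorem e_ne_zero (i : Fin N) : (e i : Fin N → k) ≠ 0 := fun h => by simpa [e] using congrFun h i

theorem e_dot (i j : Fin N) (hij : i ≠ j) : (e i : Fin N → k) ⬝ᵥ e j = 0 := by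
  simp [e, hij, hij.symm]

theorem e_dot_self (i : Fin N) : (e i : Fin N → k) ⬝ᵥ e i = 1 := by simp [e]

theorem mem_rootClass_iff (hN : 3 ≤ N) (A : Subgroup SLN) :
    A ∈ rootClass hN k ↔ ∃ g : SLN,
      A = conjBy (X (e ⟨0, by omega⟩) (e ⟨1, by omega⟩) (e_dot _ _ (by simp))) g := by
  constructor
  · rintro ⟨v, f, h, hv, hf, -, rfl⟩
    obtain ⟨g, hg1, hg2⟩ := exists_transport hN v f h hv hf
    obtain ⟨h', he⟩ := conj_X g (e ⟨0, by omega⟩) (e (k := k) ⟨1, by omega⟩) (e_dot _ _ (by simp))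
    exact ⟨g, by rw [he]; exact X_congr h h' hg1.symm hg2.symm⟩
  · rintro ⟨g, rfl⟩
    obtain ⟨h', he⟩ := conj_X g (e ⟨0, by omega⟩) (e (k := k) ⟨1, by omega⟩) (e_dot _ _ (by simp))
    refine ⟨_, _, h', ?_, ?_, hN, he⟩
    · intro hc
      have := congrArg (fun x => g⁻¹.1 *ᵥ x) hc
      rw [Matrix.mulVec_mulVec, show g⁻¹.1 * g.1 = 1 from congrArg Subtype.val (inv_mul_cancel g),
        Matrix.one_mulVec, Matrix.mulVec_zero] at this
      exact e_ne_zero _ this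
    · intro hc
      have := congrArg (fun x => x ᵥ* g.1) hc
      rw [Matrix.vecMul_vecMul, show g⁻¹.1 * g.1 = 1 from congrArg Subtype.val (inv_mul_cancel g),
        Matrix.vecMul_one, Matrix.zero_vecMul] at this
      exact e_ne_zero _ this

section Pairs

variable {v f w h : Fin N → k} (hf : f ⬝ᵥ v = 0) (hh : h ⬝ᵥ w = 0)

theorem commute_of_zero (ha : f ⬝ᵥ w = 0) (hb : h ⬝ᵥ v = 0) : ⁅X v f hf, X w h hh⁆ = ⊥ := by
  rw [Subgroup.commutator_eq_bot_iff_le_centralizer]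
  intro x hx
  rw [Subgroup.mem_centralizer_iff]
  intro y hy
  rw [SetLike.mem_coe] at hy
  obtain ⟨c, hc⟩ := mem_X.1 hx
  obtain ⟨d, hd⟩ := mem_X.1 hy
  refine Subtype.ext ?_
  rw [val_mul, val_mul, hc, hd]
  simp only [Matrix.add_mul, Matrix.mul_add, Matrix.one_mul, Matrix.mul_one, Matrix.smul_mul,
    Matrix.mul_smul, Matrix.vecMulVec_mul_vecMulVec, ha, hb, zero_smul, Matrix.vecMulVec_zero, smul_zero, add_zero]
  abel

/-- The commutator in the one-sided case. -/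
theorem commutator_val (hb : h ⬝ᵥ v = 0) (c d : k) :
    (tHom v f hf (Multiplicative.ofAdd c) * tHom w h hh (Multiplicative.ofAdd d) *
      (tHom v f hf (Multiplicative.ofAdd c))⁻¹ * (tHom w h hh (Multiplicative.ofAdd d))⁻¹).1 =
      1 + (c * d * (f ⬝ᵥ w)) • vecMulVec v h := by
  rw [tHom_inv, tHom_inv, val_mul, val_mul, val_mul, tHom_val, tHom_val,
    tHom_val, tHom_val]
  simp only [Matrix.add_mul, Matrix.mul_add, Matrix.one_mul, Matrix.mul_one, Matrix.smul_mul,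
    Matrix.mul_smul, Matrix.vecMulVec_mul_vecMulVec, Matrix.vecMulVec_smul, smul_smul, hf, hh, hb,
    mul_zero, zero_mul, zero_dotProduct, Matrix.vecMulVec_zero, zero_smul, smul_zero, add_zero, zero_add]
  module

theorem commutator_case (hN : 3 ≤ N) (hv : v ≠ 0) (hh0 : h ≠ 0) (ha : f ⬝ᵥ w ≠ 0) (hb : h ⬝ᵥ v = 0) :
    RootCommutatorCase (rootClass hN k) (X v f hf) (X w h hh) := by
  have key : ∀ c : k, c ≠ 0 → ∀ x : SLN, x ∈ X v h hb → ∃ d : k,
      x = tHom v f hf (Multiplicative.ofAdd c) * tHom w h hh (Multiplicative.ofAdd d) *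
        (tHom v f hf (Multiplicative.ofAdd c))⁻¹ * (tHom w h hh (Multiplicative.ofAdd d))⁻¹ ∧ (c = 0 → False) := by
    intro c hc x hx
    obtain ⟨s, hs⟩ := mem_X.1 hx
    refine ⟨s / (c * (f ⬝ᵥ w)), Subtype.ext ?_, hc⟩
    rw [commutator_val hf hh hb, hs]
    congr 2
    field_simp
  have key' : ∀ d : k, d ≠ 0 → ∀ x : SLN, x ∈ X v h hb → ∃ c : k,
      x = tHom v f hf (Multiplicative.ofAdd c) * tHom w h hh (Multiplicative.ofAdd d) *
        (tHom v f hf (Multiplicative.ofAdd c))⁻¹ * (tHom w h hh (Multiplicative.ofAdd d))⁻¹ := by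
    intro d hd x hx
    obtain ⟨s, hs⟩ := mem_X.1 hx
    refine ⟨s / (d * (f ⬝ᵥ w)), Subtype.ext ?_⟩
    rw [commutator_val hf hh hb, hs]
    congr 2
    field_simp
  have hmemX : ∀ a ∈ X v f hf, ∀ b ∈ X w h hh, a * b * a⁻¹ * b⁻¹ ∈ X v h hb := by
    rintro _ ⟨c, rfl⟩ _ ⟨d, rfl⟩
    obtain ⟨c, rfl⟩ := Multiplicative.ofAdd.surjective c
    obtain ⟨d, rfl⟩ := Multiplicative.ofAdd.surjective d
    exact mem_X.2 ⟨_, commutator_val hf hh hb c d⟩
  have hcomm : ⁅X v f hf, X w h hh⁆ = X v h hb := by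
    refine le_antisymm (Subgroup.commutator_le.2 fun a ha b hb' => hmemX a ha b hb') fun x hx => ?_
    obtain ⟨d, hd, -⟩ := key 1 one_ne_zero x hx
    rw [hd]
    exact Subgroup.commutator_mem_commutator ⟨_, rfl⟩ ⟨_, rfl⟩
  refine ⟨hcomm ▸ ⟨v, h, hb, hv, hh0, hN, rfl⟩, ?_, ?_, ?_⟩
  · rw [hcomm]
    intro c hc x hx
    have h1 : ⁅X v h hb, X v f hf⁆ = ⊥ := commute_of_zero hb hf hb hf
    have h2 : ⁅X v h hb, X w h hh⁆ = ⊥ := commute_of_zero hb hh hh hb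
    rw [Subgroup.commutator_eq_bot_iff_le_centralizer] at h1 h2
    have hle : X v f hf ⊔ X w h hh ≤ Subgroup.centralizer ({c} : Set SLN) := by
      refine sup_le (fun y hy => ?_) (fun y hy => ?_) <;> rw [Subgroup.mem_centralizer_singleton_iff]
      · exact Subgroup.mem_centralizer_iff.1 (h1 hc) y hy
      · exact Subgroup.mem_centralizer_iff.1 (h2 hc) y hy
    exact (Subgroup.mem_centralizer_singleton_iff.1 (hle hx)).symm
  · intro a ha' hane
    obtain ⟨c, rfl⟩ := ha'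
    obtain ⟨c, rfl⟩ := Multiplicative.ofAdd.surjective c
    have hc : c ≠ 0 := fun h0 => hane (by rw [h0, ofAdd_zero, map_one])
    rw [hcomm]
    refine le_antisymm ((Subgroup.closure_le _).2 ?_) fun x hx => ?_
    · rintro _ ⟨b, hb', rfl⟩; exact hmemX _ ⟨_, rfl⟩ b hb'
    · obtain ⟨d, hd, -⟩ := key c hc x hx
      exact Subgroup.subset_closure ⟨_, ⟨_, rfl⟩, hd.symm⟩
  · intro b hb' hbne
    obtain ⟨d, rfl⟩ := hb'
    obtain ⟨d, rfl⟩ := Multiplicative.ofAdd.surjective d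
    have hd : d ≠ 0 := fun h0 => hbne (by rw [h0, ofAdd_zero, map_one])
    rw [hcomm]
    refine le_antisymm ((Subgroup.closure_le _).2 ?_) fun x hx => ?_
    · rintro _ ⟨a, ha', rfl⟩; exact hmemX a ha' _ ⟨_, rfl⟩
    · obtain ⟨c, hc⟩ := key' d hd x hx
      exact Subgroup.subset_closure ⟨_, ⟨_, rfl⟩, hc.symm⟩

theorem not_rankOne_of_zero (ha : f ⬝ᵥ w = 0) (hb : h ⬝ᵥ v = 0) (hv : v ≠ 0) (hf0 : f ≠ 0) :
    ¬ IsRankOnePair (X v f hf) (X w h hh) := by
  intro hp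
  have hbot := commute_of_zero hf hh ha hb
  rw [Subgroup.commutator_eq_bot_iff_le_centralizer] at hbot
  obtain ⟨⟨a, ha'⟩, hane'⟩ := Subgroup.ne_bot_iff_exists_ne_one.1 (X_ne_bot hf hv hf0)
  have hane : a ≠ 1 := fun h1 => hane' (Subtype.ext h1)
  obtain ⟨b, hb', -, he⟩ := hp.cond_left a ha' hane
  refine hp.ne ?_
  have e1 : conjBy (X v f hf) b⁻¹ = X v f hf := by
    ext x
    constructor
    · rintro ⟨y, hy, rfl⟩
      have := Subgroup.mem_centralizer_iff.1 (hbot hy) b hb'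
      simpa [mul_assoc, ← this] using hy
    · intro hx
      have := Subgroup.mem_centralizer_iff.1 (hbot hx) b hb'
      exact ⟨x, hx, by simp [mul_assoc, ← this]⟩
  have e2 : conjBy (X w h hh) a⁻¹ = X w h hh := by
    ext x
    constructor
    · rintro ⟨y, hy, rfl⟩
      have := Subgroup.mem_centralizer_iff.1 (hbot ha') y hy
      simpa [mul_assoc, this] using hy
    · intro hx
      have := Subgroup.mem_centralizer_iff.1 (hbot ha') x hx
      exact ⟨x, hx, by simp [mul_assoc, this]⟩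
  rwa [e1, e2] at he

theorem not_rankOne_of_one_side (hv : v ≠ 0) (hf0 : f ≠ 0) (ha : f ⬝ᵥ w ≠ 0) (hb : h ⬝ᵥ v = 0) :
    ¬ IsRankOnePair (X v f hf) (X w h hh) := by
  intro hp
  have hane : tHom v f hf (Multiplicative.ofAdd 1) ≠ 1 := fun h1 => by
    have := congrArg Subtype.val h1
    rw [tHom_val, one_smul] at this
    exact vecMulVec_ne_zero hv hf0 (add_eq_left.1 (this.trans Matrix.SpecialLinearGroup.coe_one))
  obtain ⟨_, ⟨d, rfl⟩, -, he⟩ := hp.cond_left _ ⟨_, rfl⟩ hane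
  obtain ⟨d, rfl⟩ := Multiplicative.ofAdd.surjective d
  obtain ⟨y, ⟨s, rfl⟩, hy⟩ : ((MulAut.conj (tHom w h hh (Multiplicative.ofAdd d))⁻¹)
      (tHom v f hf (Multiplicative.ofAdd 1))) ∈ conjBy (X w h hh) (tHom v f hf (Multiplicative.ofAdd 1))⁻¹ :=
    he ▸ ⟨_, ⟨_, rfl⟩, rfl⟩
  obtain ⟨s, rfl⟩ := Multiplicative.ofAdd.surjective s
  simp only [MulEquiv.coe_toMonoidHom, MulAut.conj_apply, inv_inv] at hy
  have hy2 : tHom v f hf (Multiplicative.ofAdd 1) * ((tHom w h hh (Multiplicative.ofAdd d))⁻¹ *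
      tHom v f hf (Multiplicative.ofAdd 1) * tHom w h hh (Multiplicative.ofAdd d)) =
        tHom w h hh (Multiplicative.ofAdd s) * tHom v f hf (Multiplicative.ofAdd 1) := by
    rw [← hy]; group
  rw [tHom_inv] at hy2
  have h2 := congrArg (fun x : SLN => x.1 *ᵥ w) hy2
  simp only [val_mul, ← Matrix.mulVec_mulVec, tHom_mulVec, hh, hb, mul_zero, zero_smul, add_zero,
    one_mul, dotProduct_add, dotProduct_smul, smul_eq_mul, hf] at h2
  exact hv ((smul_eq_zero.1 (add_eq_left.1 h2)).resolve_left ha)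

/-- Columns `v`, `w`. -/
def Pm (v w : Fin N → k) : Matrix (Fin N) (Fin 2) k := Matrix.of fun i => ![v i, w i]

/-- The dual rows. -/
def Qm (v f w h : Fin N → k) : Matrix (Fin 2) (Fin N) k := Matrix.of ![(h ⬝ᵥ v)⁻¹ • h, (f ⬝ᵥ w)⁻¹ • f]

theorem qm_pm (ha : f ⬝ᵥ w ≠ 0) (hb : h ⬝ᵥ v ≠ 0) (hf : f ⬝ᵥ v = 0) (hh : h ⬝ᵥ w = 0) :
    Qm v f w h * Pm v w = 1 := by
  ext i j
  fin_cases i <;> fin_cases j <;> simp [Matrix.mul_apply, Pm, Qm, ← Finset.mul_sum, mul_assoc]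
  · exact inv_mul_cancel₀ hb
  · exact Or.inr hh
  · exact Or.inr hf
  · exact inv_mul_cancel₀ ha

/-- The copy of `SL₂`. -/
def sl2Hom (ha : f ⬝ᵥ w ≠ 0) (hb : h ⬝ᵥ v ≠ 0) :
    Matrix.SpecialLinearGroup (Fin 2) k →* Matrix.SpecialLinearGroup (Fin N) k where
  toFun g := ⟨1 + Pm v w * (g.1 - 1) * Qm v f w h, by
    rw [Matrix.det_one_add_mul_comm, ← Matrix.mul_assoc, qm_pm ha hb hf hh, Matrix.one_mul, add_sub_cancel, g.2]⟩
  map_one' := Subtype.ext (by simp)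
  map_mul' g g' := Subtype.ext (by
    change 1 + Pm v w * ((g * g').1 - 1) * Qm v f w h =
      (1 + Pm v w * (g.1 - 1) * Qm v f w h) * (1 + Pm v w * (g'.1 - 1) * Qm v f w h)
    set P := Pm v w
    set Q := Qm v f w h
    have e0 : P * (g.1 - 1) * Q * (P * (g'.1 - 1) * Q) = P * ((g.1 - 1) * (g'.1 - 1)) * Q := by
      rw [show P * (g.1 - 1) * Q * (P * (g'.1 - 1) * Q) = P * (g.1 - 1) * (Q * P) * (g'.1 - 1) * Q by
        simp only [Matrix.mul_assoc], qm_pm ha hb hf hh, Matrix.mul_one]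
      simp only [Matrix.mul_assoc]
    have e1 : ∀ A B : Matrix (Fin N) (Fin N) k, (1 + A) * (1 + B) = 1 + A + B + A * B := fun A B => by
      noncomm_ring
    have e2 : (g * g').1 - 1 = (g.1 - 1) * (g'.1 - 1) + (g.1 - 1) + (g'.1 - 1) := by
      change g.1 * g'.1 - 1 = _
      noncomm_ring
    rw [e1, e0, e2]
    simp only [Matrix.mul_add, Matrix.add_mul]
    abel)

theorem sl2Hom_val (ha : f ⬝ᵥ w ≠ 0) (hb : h ⬝ᵥ v ≠ 0) (g : Matrix.SpecialLinearGroup (Fin 2) k) :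
    (sl2Hom hf hh ha hb g).1 = 1 + Pm v w * (g.1 - 1) * Qm v f w h := rfl

/-- Upper unitriangular. -/
def up (s : k) : Matrix.SpecialLinearGroup (Fin 2) k := ⟨!![1, s; 0, 1], by simp [Matrix.det_fin_two]⟩

/-- Lower unitriangular. -/
def low (s : k) : Matrix.SpecialLinearGroup (Fin 2) k := ⟨!![1, 0; s, 1], by simp [Matrix.det_fin_two]⟩

theorem sl2Hom_up (ha : f ⬝ᵥ w ≠ 0) (hb : h ⬝ᵥ v ≠ 0) (s : k) :
    sl2Hom hf hh ha hb (up s) = tHom v f hf (Multiplicative.ofAdd (s / (f ⬝ᵥ w))) := by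
  refine Subtype.ext ?_
  rw [tHom_val]
  rw [sl2Hom_val]
  congr 1
  ext i j
  simp [Matrix.mul_apply, up, Pm, Qm, vecMulVec_apply, Fin.sum_univ_two]
  field_simp

theorem sl2Hom_low (ha : f ⬝ᵥ w ≠ 0) (hb : h ⬝ᵥ v ≠ 0) (s : k) :
    sl2Hom hf hh ha hb (low s) = tHom w h hh (Multiplicative.ofAdd (s / (h ⬝ᵥ v))) := by
  refine Subtype.ext ?_
  rw [tHom_val]
  rw [sl2Hom_val]
  congr 1
  ext i j
  simp [Matrix.mul_apply, low, Pm, Qm, vecMulVec_apply, Fin.sum_univ_two]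
  field_simp

theorem sl2Hom_injective (ha : f ⬝ᵥ w ≠ 0) (hb : h ⬝ᵥ v ≠ 0) : Function.Injective (sl2Hom hf hh ha hb) := by
  intro g g' e
  have key : ∀ x : SL2, Qm v f w h * (sl2Hom hf hh ha hb x).1 * Pm v w = x.1 := fun x => by
    rw [sl2Hom_val, Matrix.mul_add, Matrix.add_mul, Matrix.mul_one, qm_pm ha hb hf hh,
      ← Matrix.mul_assoc, ← Matrix.mul_assoc, qm_pm ha hb hf hh, Matrix.one_mul, Matrix.mul_assoc,
      qm_pm ha hb hf hh, Matrix.mul_one, add_sub_cancel]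
  exact Subtype.ext (by rw [← key g, e, key])

theorem sl2_identity {s : k} (hs : s ≠ 0) (x : k) :
    (low s⁻¹)⁻¹ * up x * low s⁻¹ = (up s)⁻¹ * low (-(s⁻¹ * s⁻¹ * x)) * up s := by
  refine Subtype.ext ?_
  change (low s⁻¹)⁻¹.1 * (up x).1 * (low s⁻¹).1 = (up s)⁻¹.1 * (low (-(s⁻¹ * s⁻¹ * x))).1 * (up s).1
  rw [Matrix.SpecialLinearGroup.coe_inv, Matrix.SpecialLinearGroup.coe_inv]
  ext i j
  fin_cases i <;> fin_cases j <;>
    simp [low, up, Matrix.adjugate_fin_two, Matrix.mul_apply, Fin.sum_univ_two] <;> field_simp <;> ring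

theorem rankOne_condition (ha : f ⬝ᵥ w ≠ 0) (hb : h ⬝ᵥ v ≠ 0) :
    RankOneCondition (X v f hf) (X w h hh) := by
  rintro _ ⟨s, rfl⟩ hne
  obtain ⟨s, rfl⟩ := Multiplicative.ofAdd.surjective s
  set φ := sl2Hom hf hh ha hb
  set σ := s * (f ⬝ᵥ w)
  have hs : tHom v f hf (Multiplicative.ofAdd s) = φ (up σ) := by
    rw [sl2Hom_up, mul_div_assoc, div_self ha, mul_one]
  have hσ : σ ≠ 0 := mul_ne_zero (fun h0 => hne (by rw [h0, ofAdd_zero, map_one])) ha
  refine ⟨φ (low σ⁻¹), ⟨_, (sl2Hom_low hf hh ha hb _).symm⟩, fun h1 => ?_, ?_⟩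
  · rw [← map_one φ] at h1
    have := congrArg (fun g : SL2 => g.1 1 0) (sl2Hom_injective hf hh ha hb h1)
    simp [low, hσ] at this
  rw [hs]
  have key : ∀ x : k, (φ (low σ⁻¹))⁻¹ * φ (up x) * φ (low σ⁻¹) =
      (φ (up σ))⁻¹ * φ (low (-(σ⁻¹ * σ⁻¹ * x))) * φ (up σ) := fun x => by
    rw [← map_inv, ← map_inv, ← map_mul, ← map_mul, ← map_mul, ← map_mul, sl2_identity hσ]
  ext z
  constructor
  · rintro ⟨_, ⟨c, rfl⟩, rfl⟩
    obtain ⟨c, rfl⟩ := Multiplicative.ofAdd.surjective c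
    refine ⟨φ (low (-(σ⁻¹ * σ⁻¹ * (c * (f ⬝ᵥ w))))), ⟨_, (sl2Hom_low hf hh ha hb _).symm⟩, ?_⟩
    simp only [MulEquiv.coe_toMonoidHom, MulAut.conj_apply, inv_inv]
    rw [← key, sl2Hom_up, mul_div_assoc, div_self ha, mul_one]
  · rintro ⟨_, ⟨c, rfl⟩, rfl⟩
    obtain ⟨c, rfl⟩ := Multiplicative.ofAdd.surjective c
    refine ⟨φ (up (-(σ * σ * (c * (h ⬝ᵥ v))))), ⟨_, (sl2Hom_up hf hh ha hb _).symm⟩, ?_⟩
    simp only [MulEquiv.coe_toMonoidHom, MulAut.conj_apply, inv_inv]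
    rw [key, sl2Hom_low, show -(σ⁻¹ * σ⁻¹ * -(σ * σ * (c * (h ⬝ᵥ v)))) / (h ⬝ᵥ v) = c by field_simp]

theorem rankOne_pair (ha : f ⬝ᵥ w ≠ 0) (hb : h ⬝ᵥ v ≠ 0) : IsRankOnePair (X v f hf) (X w h hh) := by
  refine ⟨fun e => ?_, X_nilpotent _ _ _, X_nilpotent _ _ _, rankOne_condition hf hh ha hb,
    rankOne_condition hh hf hb ha⟩
  have hm : tHom w h hh (Multiplicative.ofAdd 1) ∈ X v f hf := e ▸ ⟨_, rfl⟩
  obtain ⟨c, hc⟩ := mem_X.1 hm
  rw [tHom_val, one_smul, add_right_inj] at hc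
  have := congrArg (fun M => M *ᵥ v) hc
  simp only [Matrix.smul_mulVec, Matrix.vecMulVec_mulVec, op_smul_eq_smul, hf, zero_smul, smul_zero] at this
  exact (smul_eq_zero.1 this).elim hb fun hw => ha (by rw [hw, dotProduct_zero])

theorem psl2_pair (ha : f ⬝ᵥ w ≠ 0) (hb : h ⬝ᵥ v ≠ 0) : IsPSL2PairOver k (X v f hf) (X w h hh) := by
  set φ := sl2Hom hf hh ha hb
  have hup : ((upperUnipotentSL2 k).map φ) = X v f hf := by
    rw [upperUnipotentSL2, MonoidHom.map_closure]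
    refine le_antisymm ((Subgroup.closure_le _).2 ?_) ?_
    · rintro _ ⟨g, ⟨h10, h00, h11⟩, rfl⟩
      rw [show g = up (g.1 0 1) by
        refine Subtype.ext ?_; ext i j; fin_cases i <;> fin_cases j <;> simp [up, h10, h00, h11]]
      exact ⟨_, (sl2Hom_up hf hh ha hb _).symm⟩
    · rintro _ ⟨c, rfl⟩
      obtain ⟨c, rfl⟩ := Multiplicative.ofAdd.surjective c
      exact Subgroup.subset_closure ⟨up (c * (f ⬝ᵥ w)), ⟨by simp [up], by simp [up], by simp [up]⟩,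
        by rw [sl2Hom_up, mul_div_assoc, div_self ha, mul_one]⟩
  have hlow : ((lowerUnipotentSL2 k).map φ) = X w h hh := by
    rw [lowerUnipotentSL2, MonoidHom.map_closure]
    refine le_antisymm ((Subgroup.closure_le _).2 ?_) ?_
    · rintro _ ⟨g, ⟨h01, h00, h11⟩, rfl⟩
      rw [show g = low (g.1 1 0) by
        refine Subtype.ext ?_; ext i j; fin_cases i <;> fin_cases j <;> simp [low, h01, h00, h11]]
      exact ⟨_, (sl2Hom_low hf hh ha hb _).symm⟩
    · rintro _ ⟨c, rfl⟩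
      obtain ⟨c, rfl⟩ := Multiplicative.ofAdd.surjective c
      exact Subgroup.subset_closure ⟨low (c * (h ⬝ᵥ v)), ⟨by simp [low], by simp [low], by simp [low]⟩,
        by rw [sl2Hom_low, mul_div_assoc, div_self hb, mul_one]⟩
  refine ⟨φ, ?_, ?_, hup, hlow⟩
  · rw [← hup, ← hlow, ← Subgroup.map_sup, MonoidHom.range_eq_map]
    congr 1
    refine (eq_top_of_transvection_mem fun i j hij c => ?_).symm
    fin_cases i <;> fin_cases j
    · exact absurd rfl hij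
    · exact le_sup_left (a := upperUnipotentSL2 k) (Subgroup.subset_closure
        ⟨by simp [SpecialLinearGroup.transvection_coe], by simp [SpecialLinearGroup.transvection_coe],
          by simp [SpecialLinearGroup.transvection_coe]⟩)
    · exact le_sup_right (a := upperUnipotentSL2 k) (Subgroup.subset_closure
        ⟨by simp [SpecialLinearGroup.transvection_coe], by simp [SpecialLinearGroup.transvection_coe],
          by simp [SpecialLinearGroup.transvection_coe]⟩)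
    · exact absurd rfl hij
  · rw [(MonoidHom.ker_eq_bot_iff φ).2 (sl2Hom_injective hf hh ha hb)]
    exact bot_le

end Pairs

theorem transvection_eq (i j : Fin N) (hij : i ≠ j) (c : k) :
    SpecialLinearGroup.transvection hij c =
      tHom (e i) (e (k := k) j) (e_dot j i hij.symm) (Multiplicative.ofAdd c) := by
  refine Subtype.ext ?_
  rw [tHom_val, transvection_val, Matrix.transvection]
  congr 1
  ext a b
  simp only [Matrix.smul_apply, vecMulVec_apply, e, Matrix.single_apply, Pi.single_apply, smul_eq_mul,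
    mul_ite, ite_mul, mul_one, mul_zero, one_mul, zero_mul]
  by_cases ha : a = i <;> by_cases hb : b = j
  · rw [if_pos ⟨ha.symm, hb.symm⟩, if_pos hb, if_pos ha]
  · rw [if_neg fun h => hb h.2.symm]; simp [hb]
  · rw [if_neg fun h => ha h.1.symm]; simp [ha]
  · rw [if_neg fun h => ha h.1.symm]; simp [ha]

theorem rootSet (hN : 3 ≤ N) : IsRootSubgroupSet (rootClass (N := N) hN k) where
  commutative := by rintro _ ⟨v, f, h, -, -, -, rfl⟩; exact X_commutative v f h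
  ne_bot := by rintro _ ⟨v, f, h, hv, hf, -, rfl⟩; exact X_ne_bot h hv hf
  generates := by
    have : Nontrivial (Fin N) := Fin.nontrivial_iff_two_le.2 (by omega)
    refine eq_top_of_transvection_mem fun i j hij c => ?_
    rw [transvection_eq i j hij c]
    exact le_biSup (fun A : Subgroup SLN => A)
      (show X (e i) (e (k := k) j) (e_dot j i hij.symm) ∈ rootClass hN k from
        ⟨_, _, e_dot j i hij.symm, e_ne_zero i, e_ne_zero j, hN, rfl⟩) ⟨_, rfl⟩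
  conj_mem := by
    intro A hA g
    obtain ⟨g₀, rfl⟩ := (mem_rootClass_iff hN A).1 hA
    refine (mem_rootClass_iff hN _).2 ⟨g * g₀, ?_⟩
    rw [conjBy, conjBy, Subgroup.map_map]
    congr 1
    ext x
    simp [MulAut.conj_apply, mul_assoc]
  pair := by
    rintro _ ⟨v, f, hf, hv, hf0, -, rfl⟩ _ ⟨w, h, hh, hw, hh0, -, rfl⟩
    by_cases ha : f ⬝ᵥ w = 0 <;> by_cases hb : h ⬝ᵥ v = 0
    · exact Or.inl (commute_of_zero hf hh ha hb)
    · obtain ⟨h1, h2, h3, h4⟩ := commutator_case hh hf hN hw hf0 hb ha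
      refine Or.inr (Or.inr ⟨Subgroup.commutator_comm (X w h hh) (X v f hf) ▸ h1, ?_, ?_, ?_⟩)
      · rw [Subgroup.commutator_comm, sup_comm]; exact h2
      · intro a hma hane
        rw [Subgroup.commutator_comm, ← h4 a hma hane]
        refine le_antisymm ((Subgroup.closure_le _).2 ?_) ((Subgroup.closure_le _).2 ?_) <;>
        · rintro _ ⟨b, hbm, rfl⟩
          rw [SetLike.mem_coe, ← Subgroup.inv_mem_iff]
          exact Subgroup.subset_closure ⟨b, hbm, by group⟩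
      · intro b hmb hbne
        rw [Subgroup.commutator_comm, ← h3 b hmb hbne]
        refine le_antisymm ((Subgroup.closure_le _).2 ?_) ((Subgroup.closure_le _).2 ?_) <;>
        · rintro _ ⟨a, ham, rfl⟩
          rw [SetLike.mem_coe, ← Subgroup.inv_mem_iff]
          exact Subgroup.subset_closure ⟨a, ham, by group⟩
    · exact Or.inr (Or.inr (commutator_case hf hh hN hv hh0 ha hb))
    · exact Or.inr (Or.inl (rankOne_pair hf hh ha hb))

theorem rootClass_class (hN : 3 ≤ N) : IsRootSubgroupClass (rootClass (N := N) hN k) := by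
  refine ⟨rootSet hN, ⟨_, (mem_rootClass_iff hN _).2 ⟨1, rfl⟩⟩, fun A hA B hB => ?_⟩
  obtain ⟨g, rfl⟩ := (mem_rootClass_iff hN A).1 hA
  obtain ⟨g', rfl⟩ := (mem_rootClass_iff hN B).1 hB
  refine ⟨g' * g⁻¹, ?_⟩
  ext x
  constructor
  · rintro ⟨y, hy, rfl⟩
    refine ⟨g * y * g⁻¹, ⟨y, hy, by simp [MulAut.conj_apply]⟩, ?_⟩
    simp [MulAut.conj_apply, mul_assoc]
  · rintro ⟨_, ⟨y, hy, rfl⟩, rfl⟩
    exact ⟨y, hy, by simp [MulAut.conj_apply, mul_assoc]⟩

theorem nondegenerate (hN : 3 ≤ N) : IsNondegenerateRootSet (rootClass (N := N) hN k) := by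
  set z : Fin N := ⟨0, by omega⟩
  set o : Fin N := ⟨1, by omega⟩
  set t : Fin N := ⟨2, by omega⟩
  have hzo : z ≠ o := by simp [z, o, Fin.ext_iff]
  have hot : o ≠ t := by simp [o, t, Fin.ext_iff]
  have hzt : z ≠ t := by simp [z, t, Fin.ext_iff]
  have m : ∀ {i j : Fin N} (hij : i ≠ j), X (e i) (e (k := k) j) (e_dot j i hij.symm) ∈ rootClass hN k :=
    fun hij => ⟨_, _, e_dot _ _ hij.symm, e_ne_zero _, e_ne_zero _, hN, rfl⟩
  refine ⟨⟨_, m hzo, _, m hzt, fun h => ?_, commute_of_zero _ _ (e_dot _ _ hzo.symm) (e_dot _ _ hzt.symm)⟩,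
    ⟨_, m hzo, _, m hzo.symm, rankOne_pair _ _ (by rw [e_dot_self]; exact one_ne_zero) (by rw [e_dot_self]; exact one_ne_zero)⟩,
    ⟨_, m hzo, _, m hot, commutator_case _ _ hN (e_ne_zero _) (e_ne_zero _) (by rw [e_dot_self]; exact one_ne_zero)
      (e_dot _ _ hzt.symm)⟩⟩
  have hmem : tHom (e z) (e (k := k) t) (e_dot t z hzt.symm) (Multiplicative.ofAdd 1) ∈
      X (e z) (e (k := k) o) (e_dot o z hzo.symm) := h ▸ ⟨_, rfl⟩
  obtain ⟨c, hc⟩ := mem_X.1 hmem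
  rw [tHom_val, one_smul, add_right_inj] at hc
  simpa [vecMulVec_apply, e, hot.symm] using congrFun (congrFun hc z) t

theorem connected (hN : 3 ≤ N) :
    IsConnectedFamily (FAdj (rootClass (N := N) hN k)) (rootClass (N := N) hN k) := by
  rintro _ ⟨v, f, hf, hv, hf0, -, rfl⟩ _ ⟨w, h, hh, hw, hh0, -, rfl⟩
  obtain ⟨i, hi⟩ := Function.ne_iff.1 hv
  obtain ⟨j, hj⟩ := Function.ne_iff.1 hw
  obtain ⟨g, hgv, hgw⟩ : ∃ g : Fin N → k, g ⬝ᵥ v ≠ 0 ∧ g ⬝ᵥ w ≠ 0 := by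
    by_cases h1 : w i = 0
    · by_cases h2 : v j = 0
      · refine ⟨e i + e j, ?_, ?_⟩ <;> simp [e, h1, h2] <;> assumption
      · exact ⟨e j, by simpa [e] using h2, by simpa [e] using hj⟩
    · exact ⟨e i, by simpa [e] using hi, by simpa [e] using h1⟩
  have hex : ∀ (φ : Fin N → k) (x : Fin N → k), φ ≠ 0 → φ ⬝ᵥ x = 0 → g ⬝ᵥ x ≠ 0 →
      ∃ u, g ⬝ᵥ u = 0 ∧ φ ⬝ᵥ u ≠ 0 := by
    intro φ x hφ hφx hgx
    obtain ⟨l, hl⟩ := Function.ne_iff.1 hφ
    refine ⟨(g ⬝ᵥ x) • e l - g l • x, by simp [dotProduct_sub, dotProduct_smul, e]; ring, ?_⟩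
    simp [dotProduct_sub, dotProduct_smul, e, hφx]
    exact ⟨hgx, hl⟩
  obtain ⟨u₁, hg1, hf1⟩ := hex f v hf0 hf hgv
  obtain ⟨u₂, hg2, hh2⟩ := hex h w hh0 hh hgw
  obtain ⟨u, hgu, hfu, hhu⟩ : ∃ u, g ⬝ᵥ u = 0 ∧ f ⬝ᵥ u ≠ 0 ∧ h ⬝ᵥ u ≠ 0 := by
    by_cases h1 : h ⬝ᵥ u₁ = 0
    · by_cases h2 : f ⬝ᵥ u₂ = 0
      · exact ⟨u₁ + u₂, by rw [dotProduct_add, hg1, hg2, add_zero],
          by rw [dotProduct_add, h2, add_zero]; exact hf1, by rw [dotProduct_add, h1, zero_add]; exact hh2⟩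
      · exact ⟨u₂, hg2, h2, hh2⟩
    · exact ⟨u₁, hg1, hf1, h1⟩
  have hC : X u g hgu ∈ rootClass (N := N) hN k := ⟨u, g, hgu, fun h0 => hfu (by simp [h0]),
    fun h0 => hgv (by simp [h0]), hN, rfl⟩
  exact (Relation.ReflTransGen.single ⟨⟨v, f, hf, hv, hf0, hN, rfl⟩, hC, rankOne_pair hf hgu hfu hgv⟩).trans
    (Relation.ReflTransGen.single ⟨hC, ⟨w, h, hh, hw, hh0, hN, rfl⟩, rankOne_pair hgu hh hgw hhu⟩)

theorem kRoot (hN : 3 ≤ N) : IsKRootSubgroupSet k (rootClass (N := N) hN k) := by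
  refine ⟨rootSet hN, ?_⟩
  rintro _ ⟨v, f, hf, hv, hf0, -, rfl⟩ _ ⟨w, h, hh, hw, hh0, -, rfl⟩ hp
  by_cases ha : f ⬝ᵥ w = 0
  · by_cases hb : h ⬝ᵥ v = 0
    · exact absurd hp (not_rankOne_of_zero hf hh ha hb hv hf0)
    · exact absurd (RankOnePair_symm hp) (not_rankOne_of_one_side hh hf hw hh0 hb ha)
  · by_cases hb : h ⬝ᵥ v = 0
    · exact absurd hp (not_rankOne_of_one_side hf hh hv hf0 ha hb)
    · exact psl2_pair hf hh ha hb

end Cfsg.Agent.Linear.RootGroups
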