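import Cfsg.Prelude.Def_RootSubgroups

/-!
# Groups generated by pairwise unipotent conjugate subgroups
-/

set_option autoImplicit false

namespace Cfsg.Agent.Linear.RootGroups

open Cfsg

variable {k : Type*} [Field k] {M : Type*} [AddCommGroup M] [Module k M]

local notation "GLM" => LinearMap.GeneralLinearGroup k M
local notation "EndM" => Module.End k M

/-- The span of the `g - 1`. -/
def span1 (H : Subgroup (LinearMap.GeneralLinearGroup k M)) : Submodule k (Module.End k M) :=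
  Submodule.span k ((fun g : LinearMap.GeneralLinearGroup k M => (g : Module.End k M) - 1) '' (H : Set _))

theorem sub_one_mem {H : Subgroup GLM} {g : GLM} (hg : g ∈ H) : (g : EndM) - 1 ∈ span1 H :=
  Submodule.subset_span ⟨g, hg, rfl⟩

theorem span1_mono {H K : Subgroup GLM} (h : H ≤ K) : span1 H ≤ span1 K :=
  Submodule.span_mono (Set.image_mono h)

theorem mul_expand (g h : GLM) :
    ((g * h : GLM) : EndM) - 1 = ((g : EndM) - 1) * ((h : EndM) - 1) + ((g : EndM) - 1) + ((h : EndM) - 1) := by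
  rw [Units.val_mul]; noncomm_ring

theorem span1_mul_le (H : Subgroup GLM) : span1 H * span1 H ≤ span1 H := by
  rw [span1, Submodule.span_mul_span, Submodule.span_le]
  rintro _ ⟨_, ⟨g, hg, rfl⟩, _, ⟨h, hh, rfl⟩, rfl⟩
  change ((g : EndM) - 1) * ((h : EndM) - 1) ∈ span1 H
  rw [show ((g : EndM) - 1) * ((h : EndM) - 1) =
    (((g * h : GLM) : EndM) - 1) - ((g : EndM) - 1) - ((h : EndM) - 1) by rw [mul_expand]; abel]
  exact sub_mem (sub_mem (sub_one_mem (mul_mem hg hh)) (sub_one_mem hg)) (sub_one_mem hh)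

theorem isUnipotentOn_iff (H : Subgroup GLM) : IsUnipotentOn H ↔ ∃ n, span1 H ^ (n + 1) = ⊥ := by
  simp only [IsUnipotentOn, bind_pure_comp, List.map_eq_map, List.map_map, Function.comp_def]
  constructor
  · rintro ⟨n, hn⟩
    refine ⟨n, ?_⟩
    rw [span1, Submodule.span_pow, Submodule.span_eq_bot]
    intro x hx
    obtain ⟨f, rfl⟩ := Set.mem_pow.1 hx
    choose g hg he using fun i => (f i).2
    have h0 := hn (List.ofFn fun i : Fin n => g i.castSucc) (by
      intro a ha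
      obtain ⟨i, rfl⟩ := List.mem_ofFn.1 ha
      exact hg _) (by simp)
    rw [List.map_ofFn] at h0
    rw [List.ofFn_succ', List.concat_eq_append, List.prod_append]
    have : (List.ofFn fun i : Fin n => (f i.castSucc : EndM)) =
        List.ofFn ((fun g : GLM => (g : EndM) - 1) ∘ fun i => g i.castSucc) :=
      congrArg _ (funext fun i => (he i.castSucc).symm)
    rw [this, h0, zero_mul]
  · rintro ⟨n, hn⟩
    refine ⟨n + 1, fun l hl hlen => ?_⟩
    have key : ∀ (m : ℕ) (l : List GLM), (∀ g ∈ l, g ∈ H) → l.length = m →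
        (l.map fun g : GLM => (g : EndM) - 1).prod ∈ span1 H ^ m := by
      intro m
      induction m with
      | zero =>
        intro l _ h0
        rw [List.length_eq_zero_iff.1 h0, pow_zero]
        exact Submodule.one_le.1 le_rfl
      | succ m ih =>
        intro l hl hlen
        rcases l with _ | ⟨g, l⟩
        · simp at hlen
        · rw [List.map_cons, List.prod_cons, pow_succ']
          exact Submodule.mul_mem_mul (sub_one_mem (hl g List.mem_cons_self))
            (ih l (fun a ha => hl a (List.mem_cons_of_mem _ ha)) (by simpa using hlen))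
    simpa [hn] using key _ l hl hlen

/-- The elements with `g - 1` and `g⁻¹ - 1` in a multiplicatively closed subspace. -/
def within (L : Submodule k (Module.End k M)) (h : L * L ≤ L) :
    Subgroup (LinearMap.GeneralLinearGroup k M) where
  carrier := {g | (g : Module.End k M) - 1 ∈ L ∧ ((g⁻¹ : LinearMap.GeneralLinearGroup k M) : Module.End k M) - 1 ∈ L}
  mul_mem' := fun {a} {b} ha hb => by
    refine ⟨?_, ?_⟩
    · rw [mul_expand]
      exact add_mem (add_mem (h (Submodule.mul_mem_mul ha.1 hb.1)) ha.1) hb.1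
    · rw [mul_inv_rev, mul_expand]
      exact add_mem (add_mem (h (Submodule.mul_mem_mul hb.2 ha.2)) hb.2) ha.2
  one_mem' := by simp
  inv_mem' := fun {a} ha => ⟨ha.2, by rw [inv_inv]; exact ha.1⟩

theorem le_within {H : Subgroup GLM} {L : Submodule k EndM} {h : L * L ≤ L} (hL : span1 H ≤ L) :
    H ≤ within L h :=
  fun _ hg => ⟨hL (sub_one_mem hg), hL (sub_one_mem (inv_mem hg))⟩

theorem span1_within (L : Submodule k EndM) (h : L * L ≤ L) : span1 (within L h) ≤ L :=
  Submodule.span_le.2 (by rintro _ ⟨g, hg, rfl⟩; exact hg.1)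

theorem unipotent_of_span_le {H K : Subgroup GLM} (hK : IsUnipotentOn K) (h : span1 H ≤ span1 K) :
    IsUnipotentOn H := by
  obtain ⟨n, hn⟩ := (isUnipotentOn_iff K).1 hK
  refine (isUnipotentOn_iff H).2 ⟨n, le_bot_iff.1 (le_of_le_of_eq ?_ hn)⟩
  exact pow_le_pow_left' h _

theorem unipotent_mono {H K : Subgroup GLM} (hK : IsUnipotentOn K) (h : H ≤ K) : IsUnipotentOn H :=
  unipotent_of_span_le hK (span1_mono h)

theorem unipotent_bot : IsUnipotentOn (⊥ : Subgroup GLM) := by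
  refine (isUnipotentOn_iff _).2 ⟨0, ?_⟩
  rw [zero_add, pow_one, span1, Submodule.span_eq_bot]
  rintro _ ⟨g, hg, rfl⟩
  rw [SetLike.mem_coe, Subgroup.mem_bot] at hg
  simp [hg]

/-- A unipotent group normalised by a unipotent group gives a unipotent join. -/
theorem unipotent_sup {H X : Subgroup GLM} (hH : IsUnipotentOn H) (hX : IsUnipotentOn X)
    (hn : ∀ x ∈ X, ∀ h ∈ H, x * h * x⁻¹ ∈ H) : IsUnipotentOn (H ⊔ X) := by
  obtain ⟨n, hn'⟩ := (isUnipotentOn_iff H).1 hH
  obtain ⟨m, hm⟩ := (isUnipotentOn_iff X).1 hX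
  set L := span1 H
  set Y := span1 X
  set E : Submodule k EndM := 1 ⊔ Y
  have hLE : L ≤ L * E := by
    calc L = L * 1 := (mul_one L).symm
      _ ≤ _ := mul_le_mul' le_rfl le_sup_left
  have hYE : Y ≤ E := le_sup_right
  have hEE : E * E ≤ E := by
    simp only [E, Submodule.sup_mul, Submodule.mul_sup, one_mul, mul_one]
    exact sup_le (sup_le le_sup_left le_sup_right) (sup_le le_sup_right ((span1_mul_le X).trans le_sup_right))
  have hEL : E * L ≤ L * E := by
    simp only [E, Submodule.sup_mul, one_mul]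
    refine sup_le hLE ?_
    change span1 X * span1 H ≤ _
    rw [span1, span1, Submodule.span_mul_span, Submodule.span_le]
    rintro _ ⟨_, ⟨x, hx, rfl⟩, _, ⟨h, hh, rfl⟩, rfl⟩
    change ((x : EndM) - 1) * ((h : EndM) - 1) ∈ L * E
    set h' : GLM := x * h * x⁻¹ with hh'
    have e : (x : EndM) * (h : EndM) = (h' : EndM) * (x : EndM) := by
      rw [← Units.val_mul, ← Units.val_mul, hh', inv_mul_cancel_right]
    rw [show ((x : EndM) - 1) * ((h : EndM) - 1) = ((h' : EndM) - 1) * ((x : EndM) - 1) +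
        (((h' : EndM) - 1) - ((h : EndM) - 1)) by
      simp only [sub_mul, mul_sub, one_mul, mul_one]; rw [e]; abel]
    exact add_mem (Submodule.mul_mem_mul (sub_one_mem (hn x hx h hh)) (hYE (sub_one_mem hx)))
      (sub_mem (hLE (sub_one_mem (hn x hx h hh))) (hLE (sub_one_mem hh)))
  set I := L * E
  have hIpow : ∀ i : ℕ, I ^ i ≤ L ^ i * E := by
    intro i
    induction i with
    | zero => rw [pow_zero, pow_zero, one_mul]; exact le_sup_left
    | succ i ih =>
      rw [pow_succ, pow_succ]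
      calc I ^ i * I ≤ L ^ i * E * (L * E) := mul_le_mul' ih le_rfl
        _ = L ^ i * ((E * L) * E) := by simp only [mul_assoc]
        _ ≤ L ^ i * ((L * E) * E) := mul_le_mul' le_rfl (mul_le_mul' hEL le_rfl)
        _ = L ^ i * L * (E * E) := by simp only [mul_assoc]
        _ ≤ L ^ i * L * E := mul_le_mul' le_rfl hEE
  have hEIE : E * I * E ≤ I := by
    calc E * I * E = E * L * (E * E) := by simp only [I, mul_assoc]
      _ ≤ L * E * E := mul_le_mul' hEL hEE
      _ = L * (E * E) := mul_assoc _ _ _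
      _ ≤ L * E := mul_le_mul' le_rfl hEE
  have hYI : Y * I ≤ I := calc Y * I = Y * I * 1 := (mul_one _).symm
    _ ≤ E * I * E := mul_le_mul' (mul_le_mul' hYE le_rfl) le_sup_left
    _ ≤ I := hEIE
  have hIY : I * Y ≤ I := calc I * Y = 1 * I * Y := by rw [one_mul]
    _ ≤ E * I * E := mul_le_mul' (mul_le_mul' le_sup_left le_rfl) hYE
    _ ≤ I := hEIE
  have hII : I * I ≤ I := by
    calc I * I = L * (E * L) * E := by simp only [I, mul_assoc]
      _ ≤ L * (L * E) * E := mul_le_mul' (mul_le_mul' le_rfl hEL) le_rfl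
      _ = (L * L) * (E * E) := by simp only [mul_assoc]
      _ ≤ L * E := mul_le_mul' (span1_mul_le H) hEE
  set P := I ⊔ Y
  have hPP : P * P ≤ P := by
    simp only [P, Submodule.sup_mul, Submodule.mul_sup]
    exact sup_le (sup_le (hII.trans le_sup_left) (hYI.trans le_sup_left))
      (sup_le (hIY.trans le_sup_left) ((span1_mul_le X).trans le_sup_right))
  have hPI : P * I ≤ I := by
    simp only [P, Submodule.sup_mul]; exact sup_le hII hYI
  have hPpow : ∀ i : ℕ, P ^ (i + 1) ≤ I ⊔ Y ^ (i + 1) := by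
    intro i
    induction i with
    | zero => simp [P]
    | succ i ih =>
      rw [pow_succ' P, pow_succ' Y (i + 1)]
      calc P * P ^ (i + 1) ≤ P * (I ⊔ Y ^ (i + 1)) := mul_le_mul' le_rfl ih
        _ ≤ _ := by
          rw [Submodule.mul_sup]
          refine sup_le (hPI.trans le_sup_left) ?_
          simp only [P, Submodule.sup_mul]
          refine sup_le (le_trans ?_ le_sup_left) le_sup_right
          have hYp : ∀ j : ℕ, Y ^ (j + 1) ≤ Y := by
            intro j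
            induction j with
            | zero => rw [zero_add, pow_one]
            | succ j ihj => rw [pow_succ]; exact (mul_le_mul' ihj le_rfl).trans (span1_mul_le X)
          exact (mul_le_mul' le_rfl (hYp i)).trans hIY
  have hle : H ⊔ X ≤ within P hPP :=
    sup_le (le_within (hLE.trans le_sup_left)) (le_within le_sup_right)
  refine (isUnipotentOn_iff _).2 ⟨(m + 1) * (n + 1) - 1, le_bot_iff.1 ?_⟩
  rw [show (m + 1) * (n + 1) - 1 + 1 = (m + 1) * (n + 1) by
    have : 0 < (m + 1) * (n + 1) := by positivity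
    omega, pow_mul]
  calc (span1 (H ⊔ X) ^ (m + 1)) ^ (n + 1) ≤ (P ^ (m + 1)) ^ (n + 1) :=
        pow_le_pow_left' (pow_le_pow_left' ((span1_mono hle).trans (span1_within P hPP)) _) _
    _ ≤ I ^ (n + 1) := pow_le_pow_left' ((hPpow m).trans (by rw [hm, sup_bot_eq])) _
    _ ≤ L ^ (n + 1) * E := hIpow _
    _ = ⊥ := by rw [hn', Submodule.bot_mul]

section Baer

variable [FiniteDimensional k M] (W : Set (Subgroup (LinearMap.GeneralLinearGroup k M)))

/-- A subgroup generated by the members it contains. -/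
def IsGen (U : Subgroup (LinearMap.GeneralLinearGroup k M)) : Prop := U ≤ ⨆ A ∈ {A | A ∈ W ∧ A ≤ U}, A

/-- A maximal unipotent one. -/
def IsMaxU (U : Subgroup (LinearMap.GeneralLinearGroup k M)) : Prop :=
  IsGen W U ∧ IsUnipotentOn U ∧ ∀ A ∈ W, IsUnipotentOn (U ⊔ A) → A ≤ U

variable {W}

theorem isGen_iSup (P : Set (Subgroup GLM)) (hP : P ⊆ W) : IsGen W (⨆ A ∈ P, A) :=
  iSup₂_le fun A hA => le_biSup (fun A : Subgroup GLM => A)
    (show A ∈ {B | B ∈ W ∧ B ≤ ⨆ A ∈ P, A} from ⟨hP hA, le_biSup (fun A : Subgroup GLM => A) hA⟩)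

theorem isGen_member {A : Subgroup GLM} (hA : A ∈ W) : IsGen W A :=
  le_biSup (fun A : Subgroup GLM => A) (show A ∈ {B | B ∈ W ∧ B ≤ A} from ⟨hA, le_rfl⟩)

theorem isGen_sup {U V : Subgroup GLM} (hU : IsGen W U) (hV : IsGen W V) : IsGen W (U ⊔ V) :=
  sup_le (hU.trans (iSup₂_mono' fun A hA => ⟨A, ⟨hA.1, hA.2.trans le_sup_left⟩, le_rfl⟩))
    (hV.trans (iSup₂_mono' fun A hA => ⟨A, ⟨hA.1, hA.2.trans le_sup_right⟩, le_rfl⟩))

theorem exists_max {T : Subgroup GLM} (hT : IsGen W T) (hu : IsUnipotentOn T) :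
    ∃ U, T ≤ U ∧ IsMaxU W U := by
  classical
  let S : Set (Submodule k EndM) := {L | ∃ U, T ≤ U ∧ IsGen W U ∧ IsUnipotentOn U ∧ span1 U = L}
  obtain ⟨L, ⟨U₀, hTU, hgen, hu₀, rfl⟩, hmax⟩ :=
    (wellFounded_gt (α := Submodule k EndM)).has_min S ⟨_, T, le_rfl, hT, hu, rfl⟩
  set U := ⨆ A ∈ {A | A ∈ W ∧ A ≤ within (span1 U₀) (span1_mul_le U₀)}, A
  have hU₀U : U₀ ≤ U := hgen.trans
    (biSup_mono fun A hA => ⟨hA.1, hA.2.trans (le_within le_rfl)⟩)
  have hUle : U ≤ within (span1 U₀) (span1_mul_le U₀) := iSup₂_le fun A hA => hA.2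
  have hUu : IsUnipotentOn U := unipotent_of_span_le hu₀ ((span1_mono hUle).trans (span1_within _ _))
  refine ⟨U, hTU.trans hU₀U, isGen_iSup _ (fun A hA => hA.1), hUu, fun A hA hAu => ?_⟩
  have hle : span1 U₀ ≤ span1 (U ⊔ A) := span1_mono (hU₀U.trans le_sup_left)
  have heq : span1 U₀ = span1 (U ⊔ A) := by
    refine hle.eq_or_lt.resolve_right fun hlt => hmax _ ⟨U ⊔ A, hTU.trans (hU₀U.trans le_sup_left),
      isGen_sup (isGen_iSup _ fun B hB => hB.1) (isGen_member hA), hAu, rfl⟩ hlt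
  exact le_biSup (fun A : Subgroup GLM => A) (show A ∈ {B | B ∈ W ∧ B ≤ within (span1 U₀) (span1_mul_le U₀)}
    from ⟨hA, le_within ((span1_mono le_sup_right).trans heq.ge)⟩)

theorem mem_conjBy {A : Subgroup GLM} {g x : GLM} (hx : x ∈ A) : g * x * g⁻¹ ∈ conjBy A g :=
  ⟨x, hx, by simp [MulAut.conj_apply]⟩

/-- Inside a unipotent group, some member outside normalises the part. -/
theorem exists_normalising {G : Subgroup GLM} (hWG : ∀ A ∈ W, A ≤ G)
    (hWconj : ∀ A ∈ W, ∀ g ∈ G, conjBy A g ∈ W) {U D : Subgroup GLM}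
    (hU : IsUnipotentOn U) (hUG : IsGen W U) (hD : D ≤ U) (hDgen : IsGen W D)
    (hout : ∃ A ∈ W, A ≤ U ∧ ¬ A ≤ D) :
    ∃ A ∈ W, A ≤ U ∧ ¬ A ≤ D ∧ ∀ a ∈ A, ∀ d ∈ D, a * d * a⁻¹ ∈ D := by
  classical
  obtain ⟨n, hn⟩ := (isUnipotentOn_iff U).1 hU
  set L := span1 U
  have hpow : ∀ i j : ℕ, L ^ (i + 1) * L ^ (j + 1) ≤ L ^ (i + 1) := by
    intro i j
    induction j with
    | zero =>
      rw [zero_add, pow_one, pow_succ, mul_assoc]
      exact mul_le_mul' le_rfl (span1_mul_le U)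
    | succ j ih =>
      rw [pow_succ _ (j + 1), ← mul_assoc]
      refine (mul_le_mul' ih le_rfl).trans ?_
      rw [pow_succ, mul_assoc]
      exact mul_le_mul' le_rfl (span1_mul_le U)
  let K : ℕ → Subgroup GLM := fun i => U ⊓ within (L ^ (i + 1)) (hpow i i)
  let P : ℕ → Prop := fun i => ∀ A ∈ W, A ≤ D ⊔ K i → A ≤ D
  have hPn : P n := fun A _ hA => by
    refine hA.trans (sup_le le_rfl fun g hg => ?_)
    have h1 := hg.2.1
    rw [hn, Submodule.mem_bot, sub_eq_zero] at h1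
    rw [show g = 1 from Units.ext h1]
    exact one_mem _
  have hP0 : ¬ P 0 := fun h => by
    obtain ⟨A, hA, hAU, hAD⟩ := hout
    exact hAD (h A hA ((hAU.trans (le_inf le_rfl (le_within (by rw [zero_add, pow_one])))).trans le_sup_right))
  obtain ⟨i, hi⟩ : ∃ i, Nat.find (⟨n, hPn⟩ : ∃ i, P i) = i + 1 :=
    ⟨Nat.find (⟨n, hPn⟩ : ∃ i, P i) - 1, by
      have : Nat.find (⟨n, hPn⟩ : ∃ i, P i) ≠ 0 := fun h => hP0 (h ▸ Nat.find_spec (⟨n, hPn⟩ : ∃ i, P i))
      omega⟩
  have hPi1 : P (i + 1) := hi ▸ Nat.find_spec (⟨n, hPn⟩ : ∃ i, P i)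
  have hPi : ¬ P i := Nat.find_min (⟨n, hPn⟩ : ∃ i, P i) (by omega)
  simp only [P, not_forall] at hPi
  obtain ⟨A, hA, hAle, hAD⟩ := hPi
  refine ⟨A, hA, hAle.trans (sup_le hD inf_le_left), hAD, ?_⟩
  have hcomm : ∀ g ∈ K i, ∀ h ∈ U, g * h * g⁻¹ * h⁻¹ ∈ K (i + 1) := by
    have key : ∀ g h : GLM, g ∈ U → h ∈ U →
        (((g : EndM) - 1 ∈ L ^ (i + 1)) ∨ ((h : EndM) - 1 ∈ L ^ (i + 1))) →
        ((g * h * g⁻¹ * h⁻¹ : GLM) : EndM) - 1 ∈ L ^ (i + 1 + 1) := by
      intro g h hg hh hor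
      set c : GLM := g⁻¹ * h⁻¹
      have e : ((g * h * g⁻¹ * h⁻¹ : GLM) : EndM) - 1 =
          (((g : EndM) - 1) * ((h : EndM) - 1) - ((h : EndM) - 1) * ((g : EndM) - 1)) +
          (((g : EndM) - 1) * ((h : EndM) - 1) - ((h : EndM) - 1) * ((g : EndM) - 1)) * ((c : EndM) - 1) := by
        have hc : ((h * g * c : GLM) : EndM) = 1 := by
          rw [show h * g * c = 1 by simp [c, mul_assoc], Units.val_one]
        rw [show g * h * g⁻¹ * h⁻¹ = g * h * c by simp [c, mul_assoc]]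
        simp only [Units.val_mul] at hc ⊢
        conv_lhs => rw [← hc]
        noncomm_ring
      have hd : ((g : EndM) - 1) * ((h : EndM) - 1) - ((h : EndM) - 1) * ((g : EndM) - 1) ∈ L ^ (i + 1 + 1) := by
        rcases hor with h' | h'
        · refine sub_mem ?_ ?_
          · rw [pow_succ]; exact Submodule.mul_mem_mul h' (sub_one_mem hh)
          · rw [pow_succ']; exact Submodule.mul_mem_mul (sub_one_mem hh) h'
        · refine sub_mem ?_ ?_
          · rw [pow_succ']; exact Submodule.mul_mem_mul (sub_one_mem hg) h'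
          · rw [pow_succ]; exact Submodule.mul_mem_mul h' (sub_one_mem hg)
      rw [e]
      refine add_mem hd (hpow (i + 1) 0 ?_)
      rw [zero_add, pow_one]
      exact Submodule.mul_mem_mul hd (sub_one_mem (mul_mem (inv_mem hg) (inv_mem hh)))
    intro g hg h hh
    have hgU : g ∈ U := hg.1
    refine ⟨show g * h * g⁻¹ * h⁻¹ ∈ U from mul_mem (mul_mem (mul_mem hgU hh) (inv_mem hgU)) (inv_mem hh),
      key g h hg.1 hh (Or.inl hg.2.1), ?_⟩
    rw [show (g * h * g⁻¹ * h⁻¹)⁻¹ = h * g * h⁻¹ * g⁻¹ by group]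
    exact key h g hh hg.1 (Or.inr hg.2.1)
  set J := D ⊔ K (i + 1)
  have hnorm : D ⊔ K i ≤ Subgroup.normalizer (J : Set GLM) := by
    refine sup_le (fun d hd => Subgroup.le_normalizer (show d ∈ J from le_sup_left (a := D) hd)) ?_
    have one : ∀ g ∈ K i, ∀ x ∈ J, g * x * g⁻¹ ∈ J := by
      intro g hg x hx
      have hsub : J ≤ J.comap (MulAut.conj g).toMonoidHom := by
        refine sup_le (fun d hd => ?_) (fun z hz => ?_)
        · change g * d * g⁻¹ ∈ J
          rw [show g * d * g⁻¹ = (g * d * g⁻¹ * d⁻¹) * d by group]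
          exact mul_mem (le_sup_right (a := D) (hcomm g hg d (hD hd))) (le_sup_left (a := D) hd)
        · change g * z * g⁻¹ ∈ J
          rw [show g * z * g⁻¹ = (g * z * g⁻¹ * z⁻¹) * z by group]
          exact mul_mem (le_sup_right (a := D) (hcomm g hg z hz.1)) (le_sup_right (a := D) hz)
      exact hsub hx
    intro g hg
    rw [Subgroup.mem_normalizer_iff]
    refine fun x => ⟨fun hx => one g hg x hx, fun hx => ?_⟩
    have := one g⁻¹ (inv_mem hg) _ hx
    simpa [mul_assoc] using this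
  intro a ha d hd
  have hsub : D ≤ D.comap (MulAut.conj a).toMonoidHom := by
    refine hDgen.trans (iSup₂_le fun B hB => ?_)
    intro b hb
    change a * b * a⁻¹ ∈ D
    refine hPi1 _ (hWconj B hB.1 a (hWG A hA ha)) ?_ (mem_conjBy hb)
    rintro _ ⟨c, hc, rfl⟩
    exact (Subgroup.mem_normalizer_iff.1 (hnorm (hAle ha)) c).1 (le_sup_left (a := D) (hB.2 hc))
  exact hsub hd

/-- A generating family of pairwise unipotent conjugates generates a unipotent group. -/
theorem unipotent_iSup {G : Subgroup GLM} (hWG : ∀ A ∈ W, A ≤ G)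
    (hWW : ∀ A ∈ W, ∀ B ∈ W, IsUnipotentOn (A ⊔ B)) (hWconj : ∀ A ∈ W, ∀ g ∈ G, conjBy A g ∈ W) :
    IsUnipotentOn (⨆ A ∈ W, A) := by
  classical
  obtain ⟨U₁, -, hU₁⟩ := exists_max (W := W) (T := ⊥) bot_le unipotent_bot
  by_cases hall : ∀ A ∈ W, A ≤ U₁
  · exact unipotent_mono hU₁.2.1 (iSup₂_le hall)
  exfalso
  push Not at hall
  obtain ⟨B₀, hB₀, hB₀U⟩ := hall
  obtain ⟨U₂, hBU₂, hU₂⟩ := exists_max (W := W) (T := B₀) (isGen_member hB₀)
    (by have := hWW B₀ hB₀ B₀ hB₀; rwa [sup_idem] at this)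
  let meetG : Subgroup GLM → Subgroup GLM → Subgroup GLM := fun U V =>
    ⨆ A ∈ {A | A ∈ W ∧ A ≤ U ∧ A ≤ V}, A
  let S : Set (Submodule k EndM) :=
    {L | ∃ U V, IsMaxU W U ∧ IsMaxU W V ∧ U ≠ V ∧ span1 (meetG U V) = L}
  obtain ⟨L, ⟨U, V, hU, hV, hne, rfl⟩, hmax⟩ := (wellFounded_gt (α := Submodule k EndM)).has_min S
    ⟨_, U₁, U₂, hU₁, hU₂, fun h => hB₀U (h ▸ hBU₂), rfl⟩
  set D := meetG U V
  have hDU : D ≤ U := iSup₂_le fun A hA => hA.2.1
  have hDV : D ≤ V := iSup₂_le fun A hA => hA.2.2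
  have hDgen : IsGen W D := isGen_iSup _ fun A hA => hA.1
  have not_sub : ∀ U V, IsMaxU W U → IsMaxU W V → U ≠ V → ∃ A ∈ W, A ≤ U ∧ ¬ A ≤ V := by
    intro U V hU hV hne
    by_contra h
    push Not at h
    have hUV : U ≤ V := hU.1.trans (iSup₂_le fun A hA => h A hA.1 hA.2)
    refine hne (le_antisymm hUV (hV.1.trans (iSup₂_le fun A hA => hU.2.2 A hA.1 ?_)))
    exact unipotent_mono hV.2.1 (sup_le hUV hA.2)
  obtain ⟨A₀, hA₀, hA₀U, hA₀V⟩ := not_sub U V hU hV hne
  obtain ⟨C₀, hC₀, hC₀V, hC₀U⟩ := not_sub V U hV hU hne.symm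
  obtain ⟨A, hA, hAU, hAD, hAn⟩ := exists_normalising hWG hWconj hU.2.1 hU.1 hDU hDgen
    ⟨A₀, hA₀, hA₀U, fun h => hA₀V (h.trans hDV)⟩
  obtain ⟨C, hC, hCV, hCD, hCn⟩ := exists_normalising hWG hWconj hV.2.1 hV.1 hDV hDgen
    ⟨C₀, hC₀, hC₀V, fun h => hC₀U (h.trans hDU)⟩
  have hbig : IsUnipotentOn (D ⊔ (A ⊔ C)) := by
    refine unipotent_sup (unipotent_mono hU.2.1 hDU) (hWW A hA C hC) fun x hx d hd => ?_
    have hle : A ⊔ C ≤ Subgroup.normalizer (D : Set GLM) := by
      refine sup_le (fun x hx => ?_) (fun x hx => ?_) <;> rw [Subgroup.mem_normalizer_iff] <;>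
        refine fun y => ⟨fun hy => ?_, fun hy => ?_⟩
      · exact hAn x hx y hy
      · simpa [mul_assoc] using hAn x⁻¹ (inv_mem hx) _ hy
      · exact hCn x hx y hy
      · simpa [mul_assoc] using hCn x⁻¹ (inv_mem hx) _ hy
    exact (Subgroup.mem_normalizer_iff.1 (hle hx) d).1 hd
  obtain ⟨V', hV'le, hV'⟩ := exists_max (W := W)
    (isGen_sup hDgen (isGen_sup (isGen_member hA) (isGen_member hC))) hbig
  have hUV' : U ≠ V' := fun h => by
    have hCU : C ≤ U := h ▸ (le_sup_right.trans le_sup_right).trans hV'le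
    exact hCD (le_biSup (fun A : Subgroup GLM => A) (show C ∈ {A | A ∈ W ∧ A ≤ U ∧ A ≤ V} from ⟨hC, hCU, hCV⟩))
  have hDle : D ≤ meetG U V' := hDgen.trans
    (biSup_mono fun B hB => ⟨hB.1, hB.2.trans hDU, hB.2.trans (le_sup_left.trans hV'le)⟩)
  have hAle : A ≤ meetG U V' := le_biSup (fun A : Subgroup GLM => A)
    (show A ∈ {B | B ∈ W ∧ B ≤ U ∧ B ≤ V'} from ⟨hA, hAU, (le_sup_left.trans le_sup_right).trans hV'le⟩)
  refine hmax _ ⟨U, V', hU, hV', hUV', rfl⟩ (lt_of_le_of_ne (span1_mono hDle) fun heq => hAD ?_)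
  have hspan : span1 A ≤ span1 V :=
    ((span1_mono hAle).trans heq.ge).trans (span1_mono hDV)
  have hAV : A ≤ V := hV.2.2 A hA (unipotent_of_span_le hV.2.1
    ((span1_mono (sup_le (le_within le_rfl) (le_within hspan))).trans (span1_within _ (span1_mul_le V))))
  exact le_biSup (fun A : Subgroup GLM => A) (show A ∈ {B | B ∈ W ∧ B ≤ U ∧ B ≤ V} from ⟨hA, hAU, hAV⟩)

/-- Normality. -/
theorem conj_iSup {G : Subgroup GLM} (hWconj : ∀ A ∈ W, ∀ g ∈ G, conjBy A g ∈ W) {g : GLM} (hg : g ∈ G) :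
    conjBy (⨆ A ∈ W, A) g = ⨆ A ∈ W, A := by
  have hle : ∀ g ∈ G, conjBy (⨆ A ∈ W, A) g ≤ ⨆ A ∈ W, A := by
    intro g hg
    rw [conjBy, Subgroup.map_iSup]
    refine iSup_le fun A => ?_
    rw [Subgroup.map_iSup]
    exact iSup_le fun hA => le_biSup (fun A : Subgroup GLM => A) (hWconj A hA g hg)
  refine le_antisymm (hle g hg) fun x hx => ⟨g⁻¹ * x * g, ?_, by simp [MulAut.conj_apply, mul_assoc]⟩
  have := hle g⁻¹ (inv_mem hg) (mem_conjBy (g := g⁻¹) hx)
  rwa [inv_inv] at this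

end Baer

end Cfsg.Agent.Linear.RootGroups
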